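import Cfsg.Agent.H77.Y332Iso
import Cfsg.Agent.SporB.FiTwoTwo.OutWords

/-! Groups of type M(22) and the transpositions of the presented Fischer group. -/

set_option autoImplicit false
set_option maxRecDepth 100000

namespace Cfsg.Agent.SporB.FiPair

open Cfsg.Agent.CosetCert Cfsg.Agent.CosetEnum Cfsg.Agent.SporB.FischerU

theorem transA_eq : transA = PresentedGroup.of Cfsg.Spor.Fi22.Gen.a := by
  rw [transA, val]
  simp [pval, PresentedGroup.of]
  rfl

theorem range_tr : Set.range tr = conjugatesOf transA := by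
  ext y
  constructor
  · rintro ⟨z, rfl⟩
    exact isConj_iff.2 ⟨_, (tr_eq z).symm⟩
  · intro hy
    obtain ⟨k, rfl⟩ := isConj_iff.1 hy
    exact ⟨pRep k 0, by rw [← conj_tr, tr_zero]⟩

/-- A group of type M(22) is the presented group with its 3510 transpositions. -/
theorem iso_range_tr {G : Type*} [Group G] [Finite G] {D : Set G} (P : TTLink.M22Prim D) :
    ∃ e : G ≃* Cfsg.Spor.Fi22, e '' D = Set.range tr := by
  obtain ⟨e, he⟩ := H77.iso_fi22 P
  refine ⟨e.symm, ?_⟩
  rw [range_tr, transA_eq, ← he, Set.image_image]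
  simp

end Cfsg.Agent.SporB.FiPair
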