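import Cfsg.Agent.SporB.FiPair.Transfer
import Cfsg.Agent.Tech.BBalance
import Cfsg.Agent.LargeExtra.Pair

/-! Transfer of the centraliser in the automorphism group to an isomorphic group. -/

set_option autoImplicit false
set_option maxRecDepth 100000

namespace Cfsg.Agent.SporB.FiPair

open Cfsg.Agent.SporB.FischerU
open Cfsg.Agent.GFour25 (F4)

local notation "G22" => Cfsg.Spor.Fi22

theorem center_map_eq_inf {A : Type*} [Group A] (Q : Subgroup A) :
    (Subgroup.center ↥Q).map Q.subtype = Q ⊓ Subgroup.centralizer (Q : Set A) := by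
  ext x
  constructor
  · rintro ⟨y, hy, rfl⟩
    exact ⟨y.2, fun z hz => congrArg Subtype.val (Subgroup.mem_center_iff.1 hy ⟨z, hz⟩)⟩
  · rintro ⟨h1, h2⟩
    exact ⟨⟨x, h1⟩, Subgroup.mem_center_iff.2 fun z => Subtype.ext (h2 z z.2), rfl⟩

theorem large_map {A B : Type*} [Group A] [Group B] [Finite A] (ε : A ≃* B) {Q : Subgroup A}
    (h : Cfsg.IsLargeExtraspecial Q) : Cfsg.IsLargeExtraspecial (Q.map ε.toMonoidHom) := by
  obtain ⟨h1, h2, h3, h4⟩ := h
  have hz : (Subgroup.center ↥(Q.map ε.toMonoidHom)).map (Q.map ε.toMonoidHom).subtype =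
      ((Subgroup.center ↥Q).map Q.subtype).map ε.toMonoidHom := by
    rw [center_map_eq_inf, center_map_eq_inf, Subgroup.map_inf _ _ _ ε.injective, comap_map_centralizer,
      Subgroup.coe_map]
    rfl
  refine ⟨LargeExtra.isExtraspecial_map_equiv h1 (ε.subgroupMap Q), ?_, ?_, fun K hK hn => ?_⟩
  · rw [hz, ← h2, comap_map_centralizer, Subgroup.coe_map]
    rfl
  · intro x hx
    rw [hz] at hx
    have hx' : ε.symm x ∈ Subgroup.normalizer (Q : Set A) := by
      refine h3 fun y hy => ε.injective ?_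
      rw [map_mul, map_mul, ε.apply_symm_apply]
      exact hx (ε y) ⟨y, hy, rfl⟩
    rw [Subgroup.mem_normalizer_iff] at hx' ⊢
    intro y
    constructor
    · rintro ⟨a, ha, rfl⟩
      refine ⟨ε.symm x * a * (ε.symm x)⁻¹, (hx' a).1 ha, ?_⟩
      simp
    · rintro ⟨a, ha, e⟩
      refine ⟨ε.symm y, (hx' _).2 ?_, ε.apply_symm_apply y⟩
      have : ε.symm x * ε.symm y * (ε.symm x)⁻¹ = a := by
        apply ε.injective
        simp only [map_mul, map_inv, ε.apply_symm_apply]
        exact e.symm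
      rw [this]; exact ha
  · have hK' : Nat.card ↥(K.comap ε.toMonoidHom) = Nat.card K :=
      Nat.card_congr (ε.toEquiv.subtypeEquiv fun a => Iff.rfl)
    have h5 := h4 (K.comap ε.toMonoidHom) (hK' ▸ hK) (fun q hq => Subgroup.mem_normalizer_iff.2 fun y => by
      have := Subgroup.mem_normalizer_iff.1 (hn (⟨q, hq, rfl⟩ : ε q ∈ Q.map ε.toMonoidHom)) (ε y)
      show ε y ∈ K ↔ ε (q * y * q⁻¹) ∈ K
      rw [map_mul, map_mul, map_inv]
      exact this)
    refine le_bot_iff.1 fun x hx => ?_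
    obtain ⟨a, rfl⟩ := ε.surjective x
    have ha : a ∈ K.comap ε.toMonoidHom := hx
    rw [h5, Subgroup.mem_bot] at ha
    rw [ha, map_one]
    exact one_mem _

/-- The centraliser in the automorphism group of the conjugation by a product of two commuting members. -/
theorem pair_aut {G : Type*} [Group G] [Finite G] {D : Set G}
    (h : ∃ e : G ≃* G22, e '' D = Set.range tr) {d₁ d₂ : G} (h₁ : d₁ ∈ D) (h₂ : d₂ ∈ D) (hne : d₁ ≠ d₂)
    (hc : Commute d₁ d₂) (j : MulAut G) (hj : j = MulAut.conj (d₁ * d₂)) (Q : Subgroup (MulAut G))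
    (hQ : Q = (Cfsg.generalizedFittingSubgroup ↥(Subgroup.centralizer ({j} : Set (MulAut G)))).map
      (Subgroup.centralizer ({j} : Set (MulAut G))).subtype) :
    Cfsg.IsLargeExtraspecial Q ∧ Nat.card Q = 2 ^ 11 ∧ Q ≤ Subgroup.centralizer ({j} : Set (MulAut G)) ∧
      ∃ (_ : (Q.subgroupOf (Subgroup.centralizer ({j} : Set (MulAut G)))).Normal) (F : Type) (_ : Field F)
        (_ : Fintype F), Fintype.card F = 4 ∧
          Nonempty (↥(Subgroup.centralizer ({j} : Set (MulAut G))) ⧸
            Q.subgroupOf (Subgroup.centralizer ({j} : Set (MulAut G))) ≃* MulAut (Cfsg.PSU 4 F 2)) := by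
  obtain ⟨e, ha, hb⟩ := exists_std h h₁ h₂ hne hc
  haveI : Finite G22 := Finite.of_equiv G e.toEquiv
  haveI : Finite (MulAut G) := Finite.of_injective (fun α : MulAut G => (α : G → G)) DFunLike.coe_injective
  haveI : Finite (MulAut G22) :=
    Finite.of_injective (fun α : MulAut G22 => (α : G22 → G22)) DFunLike.coe_injective
  obtain ⟨E, hE⟩ : ∃ E : MulAut G ≃* MulAut G22, E j = jA := by
    refine ⟨MulAut.congr e, MulEquiv.ext fun x => ?_⟩
    show e (j (e.symm x)) = jA x
    rw [hj, MulAut.conj_apply, MulAut.conj_apply, map_mul, map_mul, map_inv, e.apply_symm_apply, map_mul,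
      ha, hb]
  set C := Subgroup.centralizer ({j} : Set (MulAut G)) with hCdef
  have hC : C.map E.toMonoidHom = CJ := by
    rw [hCdef, comap_map_centralizer, Set.image_singleton, hE]
  let ε : ↥C ≃* ↥CJ := (E.subgroupMap C).trans (MulEquiv.subgroupCongr hC)
  have hQA : Q.map E.toMonoidHom = QA := by
    rw [← genFitting_CJ, ← Tech.genFitting_map_equiv ε, hQ, Subgroup.map_map, Subgroup.map_map]
    rfl
  have hQ' : QA.map E.symm.toMonoidHom = Q := by
    rw [← hQA, Subgroup.map_map]
    convert Subgroup.map_id Q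
    ext; simp
  have hle : Q ≤ C := hQ ▸ Subgroup.map_subtype_le _
  have hmem : Q.subgroupOf C = (QA.subgroupOf CJ).comap ε.toMonoidHom := by
    ext x
    show (x : MulAut G) ∈ Q ↔ E x ∈ QA
    rw [← hQA]
    exact (Subgroup.mem_map_iff_mem (f := E.toMonoidHom) E.injective).symm
  refine ⟨hQ' ▸ large_map E.symm large, ?_, hle, ?_⟩
  · rw [← card_QA, ← hQA]
    exact Nat.card_congr (E.subgroupMap Q).toEquiv
  haveI hn : (Q.subgroupOf C).Normal := by rw [hmem]; exact QA_subgroupOf_normal.comap _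
  refine ⟨hn, F4, inferInstance, inferInstance, hF4.trans (by norm_num), ?_⟩
  obtain ⟨θ⟩ := quot_equiv
  obtain ⟨α⟩ := aut_equiv
  refine ⟨((QuotientGroup.congr _ _ ε ?_).trans θ).trans α⟩
  rw [hmem]
  exact Subgroup.map_comap_eq_self_of_surjective ε.surjective _

end Cfsg.Agent.SporB.FiPair
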