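import Cfsg.Agent.SporB.FiPair.GOCard
import Cfsg.Agent.S0303
import Cfsg.Agent.S0815
import Cfsg.Agent.Classical.USimple
import Cfsg.Agent.GFour25.Basic
import Cfsg.Agent.Classical.UGroup

/-! The orthogonal group of minus type in dimension six over two elements is the automorphism group of
the simple unitary group in dimension four over four elements; it has no normal 2-subgroup. -/

set_option autoImplicit false

namespace Cfsg.Agent.SporB.FiPair

open Cfsg.Agent.GFour25
open scoped commutatorElement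

/-- Pairs of words whose commutators separate the vectors. -/
def sepL : List (List ℕ × List ℕ) :=
  [([0], [1]), ([0], [2]), ([0], [4, 3]), ([0], [3]), ([0], [4, 2]), ([0], [2, 3]), ([0], [4, 1]),
   ([1], [2]), ([1], [4]), ([1], [2, 3]), ([1], [4, 3]), ([2], [4]), ([4], [0, 1]), ([3], [4]),
   ([1, 0, 4], [3]), ([0, 2, 0], [4, 3]), ([0, 3, 1], [2]), ([0, 2, 3], [4, 2]), ([0, 1], [3, 0]),
   ([3], [0, 2]), ([3], [4, 1]), ([0, 1], [0, 2])]

/-- Whether the commutator of two words fixes a vector. -/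
def fixB (p : List ℕ × List ℕ) (v : ℕ) : Bool :=
  (List.range 64).any fun u => apW (p.2 ++ p.1) u == v && apW (p.1 ++ p.2) u == v

theorem fixB_iff {p : List ℕ × List ℕ} {v : ℕ} (hv : v < 64) :
    fixB p v = true ↔ ⁅wordGO p.1, wordGO p.2⁆ • dec6 v = dec6 v := by
  have happ : ∀ a b : List ℕ, wordGO (a ++ b) = wordGO a * wordGO b := fun a b => by simp [wordGO]
  have hc : ⁅wordGO p.1, wordGO p.2⁆ = wordGO (p.1 ++ p.2) * (wordGO (p.2 ++ p.1))⁻¹ := by
    rw [happ, happ, mul_inv_rev, commutatorElement_def, mul_assoc, mul_assoc]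
  rw [hc, mul_smul]
  constructor
  · intro h
    obtain ⟨u, hu, h⟩ := List.any_eq_true.1 h
    rw [Bool.and_eq_true, beq_iff_eq, beq_iff_eq] at h
    have h1 := (wordGO_spec (p.2 ++ p.1) u (List.mem_range.1 hu)).1
    have h2 := (wordGO_spec (p.1 ++ p.2) u (List.mem_range.1 hu)).1
    rw [h.1, ← smul_def] at h1
    rw [h.2, ← smul_def] at h2
    rw [← h1, inv_smul_smul, h2, h1]
  · intro h
    set x := (wordGO (p.2 ++ p.1))⁻¹ • dec6 v with hx
    have hx' : x = dec6 (enc6 x) := (dec6_enc6 x).1.symm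
    refine List.any_eq_true.2 ⟨enc6 x, List.mem_range.2 (dec6_enc6 x).2, ?_⟩
    rw [Bool.and_eq_true, beq_iff_eq, beq_iff_eq]
    have h1 := wordGO_spec (p.2 ++ p.1) _ (dec6_enc6 x).2
    have h2 := wordGO_spec (p.1 ++ p.2) _ (dec6_enc6 x).2
    rw [← smul_def, ← hx'] at h1 h2
    refine ⟨dec6_inj h1.2 hv ?_, dec6_inj h2.2 hv ?_⟩
    · rw [← h1.1, hx, smul_inv_smul]
    · rw [← h2.1, h]

theorem sep_check : ∀ u v : Fin 64, (∀ p ∈ sepL, fixB p u = fixB p v) → u = v := by decide +kernel

/-- Nothing non-trivial commutes with the derived subgroup. -/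
theorem eq_one_of_commute {g : GO6} (h : ∀ x ∈ commutator GO6, g * x = x * g) : g = 1 := by
  refine GO6.ext' fun w => ?_
  rw [gmv_one, ← smul_def]
  have e := sep_check ⟨enc6 (g • w), (dec6_enc6 _).2⟩ ⟨enc6 w, (dec6_enc6 _).2⟩ fun p _ => by
    have hm : ⁅wordGO p.1, wordGO p.2⁆ ∈ commutator GO6 :=
      Subgroup.commutator_mem_commutator (Subgroup.mem_top _) (Subgroup.mem_top _)
    rw [Bool.eq_iff_iff, fixB_iff (dec6_enc6 _).2, fixB_iff (dec6_enc6 _).2, (dec6_enc6 _).1,
      (dec6_enc6 _).1, ← mul_smul, ← h _ hm, mul_smul]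
    exact smul_left_cancel_iff _
  exact (dec6_enc6 (g • w)).1.symm.trans ((congrArg dec6 (congrArg Fin.val e)).trans (dec6_enc6 w).1)

theorem center_omega : Subgroup.center (Cfsg.Omega (ZMod 2) qm) = ⊥ :=
  le_bot_iff.1 fun x hx => Subgroup.mem_bot.2 (Subtype.ext (eq_one_of_commute fun y hy =>
    (congrArg Subtype.val (Subgroup.mem_center_iff.1 hx ⟨y, hy⟩)).symm))

theorem aniso : ∀ z₁ z₂ : ZMod 2, z₁ ^ 2 + 1 * z₁ * z₂ + 1 * z₂ ^ 2 = 0 → z₁ = 0 ∧ z₂ = 0 := by
  decide

theorem hF4 : Fintype.card F4 = 2 ^ 2 := by rw [card_F4]; norm_num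

theorem sqF4 : Cfsg.Agent.Classical.U.SqField F4 2 := Cfsg.Agent.Classical.U.sqField_of_fintype hF4

/-- The derived subgroup is the simple unitary group. -/
theorem omega_equiv : Nonempty (↥(Cfsg.Omega (ZMod 2) qm) ≃* Cfsg.PSU 4 F4 2) := by
  obtain ⟨e⟩ := S0303.result (F := ZMod 2) (K := F4) (q := 2) (by simp) hF4 1 1 aniso
  exact ⟨(QuotientGroup.quotientBot.symm.trans
    (QuotientGroup.quotientMulEquivOfEq center_omega.symm)).trans e⟩

theorem omega_simple : IsSimpleGroup ↥(Cfsg.Omega (ZMod 2) qm) := by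
  obtain ⟨e⟩ := omega_equiv
  have := Cfsg.Agent.Classical.U.isSimpleGroup_PSU (F := F4) (q := 2) (n := 4) sqF4 (by norm_num)
    (by norm_num)
  exact e.isSimpleGroup

/-- A non-trivial normal subgroup contains the derived subgroup. -/
theorem commutator_le_of_normal (N : Subgroup GO6) [N.Normal] (hN : N ≠ ⊥) :
    commutator GO6 ≤ N := by
  have := omega_simple
  rcases (N.normal_subgroupOf (H := commutator GO6)).eq_bot_or_eq_top with h | h
  · refine absurd (le_bot_iff.1 fun g hg => Subgroup.mem_bot.2 (eq_one_of_commute fun x hx => ?_)) hN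
    have hd : Disjoint N (commutator GO6) := by
      rw [disjoint_comm]; exact Subgroup.subgroupOf_eq_bot.1 h |>.symm
    exact Subgroup.commute_of_normal_of_disjoint N (commutator GO6) inferInstance inferInstance hd g x hg hx
  · exact Subgroup.subgroupOf_eq_top.1 h

theorem two_core_bot (N : Subgroup GO6) [N.Normal] (hN : IsPGroup 2 N) : N = ⊥ := by
  by_contra h
  have hle := commutator_le_of_normal N h
  have hp : IsPGroup 2 ↥(commutator GO6) := hN.to_le hle
  have := omega_simple
  have := hp.isNilpotent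
  have hc : Subgroup.center ↥(Cfsg.Omega (ZMod 2) qm) ≠ ⊥ := by
    intro h0
    haveI : Nontrivial ↥(commutator GO6) := (omega_simple).toNontrivial
    haveI := hp.center_nontrivial
    exact (Subgroup.nontrivial_iff_ne_bot _).1 this h0
  exact hc center_omega

theorem card_psu_four : Nat.card (Cfsg.PSU 4 F4 2) = 25920 := by
  have h := Cfsg.Agent.Classical.U.card_PSU sqF4 (n := 4) (by norm_num)
  rw [Cfsg.Agent.Classical.U.card_UG sqF4] at h
  simp only [Finset.prod_range_succ, Finset.prod_range_zero, Nat.even_iff] at h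
  generalize Nat.card (Cfsg.PSU 4 F4 2) = N at h ⊢
  norm_num at h
  omega

/-- The orthogonal group is the automorphism group of the simple unitary group. -/
theorem aut_equiv : Nonempty (GO6 ≃* MulAut (Cfsg.PSU 4 F4 2)) := by
  obtain ⟨e⟩ := omega_equiv
  let f : GO6 →* MulAut ↥(Cfsg.Omega (ZMod 2) qm) := MulAut.conjNormal
  have hf : Function.Injective f := by
    rw [← MonoidHom.ker_eq_bot_iff]
    refine le_bot_iff.1 fun g hg => Subgroup.mem_bot.2 (eq_one_of_commute fun x hx => ?_)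
    have h1 := congrArg Subtype.val (DFunLike.congr_fun (MonoidHom.mem_ker.1 hg) ⟨x, hx⟩)
    change g * x * g⁻¹ = x at h1
    rw [← mul_inv_eq_iff_eq_mul, h1]
  let g : GO6 →* MulAut (Cfsg.PSU 4 F4 2) := (MulAut.congr e).toMonoidHom.comp f
  have hg : Function.Injective g := (MulAut.congr e).injective.comp hf
  have hc : Nat.card (MulAut (Cfsg.PSU 4 F4 2)) = 51840 := by
    haveI : Fact (Nat.Prime 2) := ⟨Nat.prime_two⟩
    have h1 := S0815.result (F := F4) 2 1 le_rfl (q := 2) (by norm_num) hF4 4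
      (by norm_num) (by norm_num)
    rw [h1]
    have h2 := Nat.card_congr e.toEquiv
    have h3 : Nat.card (Cfsg.PSU 4 F4 2) = 25920 := card_psu_four
    rw [h3]; norm_num
  exact ⟨MulEquiv.ofBijective g ((Nat.bijective_iff_injective_and_card g).2 ⟨hg, by rw [hc, card_GO6]⟩)⟩

end Cfsg.Agent.SporB.FiPair
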