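import Cfsg.Agent.SporB.FiPair.Structure
import Cfsg.Agent.S5422
import Cfsg.Prelude.Def_MonsterType

/-! The centraliser in the automorphism group of the presented Fischer group of the conjugation by a
product of two commuting transpositions. -/

set_option autoImplicit false
set_option Elab.async false
set_option maxRecDepth 100000

namespace Cfsg.Agent.SporB.FiPair

open Cfsg.Agent.CosetCert Cfsg.Agent.SporB.FischerU
open scoped commutatorElement

local notation "G22" => Cfsg.Spor.Fi22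

/-- The correcting element of the outer automorphism. -/
def hL : List ℕ := [40, 154, 43, 424, 66, 539, 31, 13, 16, 40, 88, 154, 6, 16, 40, 88]

/-- The outer automorphism centralising the frame. -/
noncomputable def tauA : MulAut G22 := MulAut.conj (el hL) * swapAut

/-- Its action on points. -/
noncomputable def sgm (a : ℕ) : ℕ := act hL (outPiT.get 16 (a % 3510))

theorem tauA_tr (a : ℕ) : tauA (tr (ptF a)) = tr (ptF (sgm a)) := by
  obtain ⟨p, hp, e⟩ := swapHom_tr (ptF a)
  rw [tauA, MulAut.mul_apply, MulAut.conj_apply, swapAut, MonoidHom.toMulEquiv_apply, e, conj_tr]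
  refine congrArg tr (Fin.ext ?_)
  have hv : ((ptF a : Fin 3510) : ℕ) = a % 3510 := rfl
  have h : (pRep (el hL) p : ℕ) = sgm a := by rw [pRep_el, hp, hv, sgm]
  rw [h]
  exact (Nat.mod_eq_of_lt (h ▸ (pRep (el hL) p).2)).symm

theorem tauA_el (l : List ℕ) : tauA (el l) = el (l.map sgm) := by
  induction l with
  | nil => simp [el]
  | cons a as ih => rw [el_cons, map_mul, tauA_tr, ih, List.map_cons, el_cons]

theorem tau_checks : sgm 0 = 6 ∧ sgm 6 = 0 ∧ (∀ i : Fin 9, sgm (sgm (genPt i : ℕ)) = (genPt i : ℕ)) ∧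
    ∀ i : Fin 8, sameB ((fL i).map sgm) (fL i) = true := by decide +kernel

theorem tauA_d1 : tauA d1 = d2 := by rw [d1, tauA_tr, tau_checks.1]

theorem tauA_d2 : tauA d2 = d1 := by rw [d2, tauA_tr, tau_checks.2.1]

theorem tauA_fEl (i : Fin (2 * 4)) : tauA (fEl i) = fEl i := by
  rw [fEl, tauA_el, el_eq_of_sameB (tau_checks.2.2.2 i)]

theorem tauA_wP : tauA wP = wP := by
  rw [wP, map_mul, tauA_d1, tauA_d2]
  exact (comm_tr_iff d2 (ptF 0)).2 (Fin.ext (by
    rw [show d2 = el [6] from (el_singleton 6).symm, pRep_el]; decide +kernel))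

theorem tauA_sq : tauA * tauA = 1 := by
  have e : (tauA * tauA).toMonoidHom = (1 : MulAut G22).toMonoidHom := by
    refine hom_ext_gens fun i => ?_
    show tauA (tauA (tr (genPt i))) = tr (genPt i)
    rw [← ptF_val (genPt i), tauA_tr, tauA_tr, tau_checks.2.2.1 i]
  exact MulEquiv.ext fun g => DFunLike.congr_fun e g

theorem tauA_not_inner : tauA ∉ Cfsg.Inn G22 := fun h => swapAut_not_inner (by
  have : swapAut = (MulAut.conj (el hL))⁻¹ * tauA := by rw [tauA, inv_mul_cancel_left]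
  rw [this]
  exact Subgroup.mul_mem _ (Subgroup.inv_mem _ ⟨_, rfl⟩) h)

theorem conj_injective : Function.Injective (MulAut.conj : G22 →* MulAut G22) := by
  rw [injective_iff_map_eq_one]
  intro g hg
  refine eq_one_of_gens fun i => (comm_tr_iff _ _).1 ?_
  have h1 := DFunLike.congr_fun hg (tr (genPt i))
  change g * tr (genPt i) * g⁻¹ = tr (genPt i) at h1
  exact mul_inv_eq_iff_eq_mul.1 h1

/-- The involution. -/
noncomputable abbrev jA : MulAut G22 := MulAut.conj wP

/-- Its centraliser. -/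
noncomputable abbrev CJ : Subgroup (MulAut G22) := Subgroup.centralizer ({jA} : Set (MulAut G22))

theorem aut_conj (α : MulAut G22) (g : G22) : α * MulAut.conj g * α⁻¹ = MulAut.conj (α g) := by
  ext x
  show α (g * α⁻¹ x * g⁻¹) = α g * x * (α g)⁻¹
  rw [map_mul, map_mul, map_inv, MulAut.apply_inv_self]

theorem tau_conj (g : G22) : tauA * MulAut.conj g = MulAut.conj (tauA g) * tauA := by
  rw [← aut_conj, inv_mul_cancel_right]

theorem mem_CJ {α : MulAut G22} : α ∈ CJ ↔ α wP = wP := by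
  rw [Subgroup.mem_centralizer_singleton_iff, ← mul_inv_eq_iff_eq_mul, aut_conj]
  exact ⟨fun h => conj_injective h, fun h => by rw [h]⟩

theorem conj_mem_CJ {g : G22} : MulAut.conj g ∈ CJ ↔ g ∈ CC := by
  rw [mem_CJ, mem_CC, MulAut.conj_apply, mul_inv_eq_iff_eq_mul]

theorem aut_cases (α : MulAut G22) : ∃ g, α = MulAut.conj g ∨ α = MulAut.conj g * tauA := by
  by_cases h : α ∈ Cfsg.Inn G22
  · obtain ⟨g, hg⟩ := h
    exact ⟨g, Or.inl hg.symm⟩
  · have hi : (Cfsg.Inn G22).index = 2 := card_out_fi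
    have h2 : α * tauA ∈ Cfsg.Inn G22 := by
      rw [Subgroup.mul_mem_iff_of_index_two hi]
      exact iff_of_false h tauA_not_inner
    obtain ⟨g, hg⟩ := h2
    exact ⟨g, Or.inr (by rw [hg, mul_assoc, tauA_sq, mul_one])⟩

theorem mem_CJ_cases {α : MulAut G22} (h : α ∈ CJ) :
    ∃ g ∈ CC, α = MulAut.conj g ∨ α = MulAut.conj g * tauA := by
  obtain ⟨g, hg⟩ := aut_cases α
  refine ⟨g, ?_, hg⟩
  rcases hg with rfl | rfl
  · exact conj_mem_CJ.1 h
  · rw [mem_CJ, MulAut.mul_apply, tauA_wP] at h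
    rw [← conj_mem_CJ, mem_CJ]; exact h

theorem tauA_mem_CJ : tauA ∈ CJ := mem_CJ.2 tauA_wP

theorem tauA_mem_CC {g : G22} (hg : g ∈ CC) : tauA g ∈ CC := by
  have h : tauA (g * wP) = tauA (wP * g) := congrArg tauA (mem_CC.1 hg)
  rw [map_mul tauA g wP, map_mul tauA wP g, tauA_wP] at h
  exact mem_CC.2 h

theorem tauA_QQ {q : G22} (hq : q ∈ QQ) : tauA q ∈ QQ := by
  rw [dom_facts.2] at hq
  obtain ⟨⟨a, x⟩, rfl⟩ := hq
  have hx : tauA (x : G22) = x := by
    have : ∀ y ∈ EE, tauA y = y := fun y hy => by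
      induction hy using Subgroup.closure_induction with
      | mem y hy => obtain ⟨i, rfl⟩ := hy; exact tauA_fEl i
      | one => exact map_one _
      | mul y z _ _ hy hz => rw [map_mul, hy, hz]
      | inv y _ hy => rw [map_inv, hy]
    exact this _ x.2
  show tauA ((if a.toAdd = 1 then d1 else 1) * (x : G22)) ∈ QQ
  rw [map_mul, hx]
  refine mul_mem ?_ (EE_le_QQ x.2)
  split
  · rw [tauA_d1]; exact d2_mem_QQ
  · rw [map_one]; exact one_mem _

/-- The check that the automorphism commutes with a generator modulo the kernel. -/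
noncomputable def genTauB (l : List ℕ) : Bool :=
  sameB (l.map sgm ++ l.reverse ++ [0, 6]) ([0, 6] ++ (l.map sgm ++ l.reverse)) &&
    (List.finRange 8).all fun i =>
      sameB (l.map sgm ++ l.reverse ++ fL i ++ (l.map sgm ++ l.reverse).reverse) (fL i) ||
        sameB (l.map sgm ++ l.reverse ++ fL i ++ (l.map sgm ++ l.reverse).reverse) (fL i ++ [0, 6])

theorem genTau_check : ∀ k : Fin 5, genTauB (gensL.getD k []) = true := by decide +kernel

/-- The automorphism is trivial modulo the kernel. -/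
theorem tauA_mod {g : G22} (hg : g ∈ CC) : tauA g * g⁻¹ ∈ QQ := by
  let S : Subgroup ↥CC :=
    { carrier := {g | tauA (g : G22) * (g : G22)⁻¹ ∈ QQ}
      one_mem' := by simp
      mul_mem' := fun {a b} ha hb => by
        show tauA ((a : G22) * b) * ((a : G22) * b)⁻¹ ∈ QQ
        have e : tauA ((a : G22) * b) * ((a : G22) * b)⁻¹ =
            (tauA (a : G22) * (tauA (b : G22) * (b : G22)⁻¹) * (tauA (a : G22))⁻¹) *
              (tauA (a : G22) * (a : G22)⁻¹) := by rw [map_mul]; group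
        rw [e]
        exact mul_mem (QQ_normal _ (tauA_mem_CC a.2) _ hb) ha
      inv_mem' := fun {a} ha => by
        show tauA ((a : G22)⁻¹) * ((a : G22)⁻¹)⁻¹ ∈ QQ
        have e : tauA ((a : G22)⁻¹) * ((a : G22)⁻¹)⁻¹ =
            (tauA (a : G22))⁻¹ * (tauA (a : G22) * (a : G22)⁻¹)⁻¹ * ((tauA (a : G22))⁻¹)⁻¹ := by
          rw [map_inv]; group
        rw [e]
        exact QQ_normal _ (inv_mem (tauA_mem_CC a.2)) _ (inv_mem ha) }
  have hker : pairHom.ker ≤ S := fun x hx => by
    rw [pairHom_ker, Subgroup.mem_subgroupOf] at hx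
    exact mul_mem (tauA_QQ hx) (inv_mem hx)
  have hgen : ∀ k : Fin 5, (⟨genEl k, gen_mem_CC k⟩ : ↥CC) ∈ S := fun k => by
    show tauA (genEl k) * (genEl k)⁻¹ ∈ QQ
    rw [genEl, tauA_el, ← el_reverse, ← el_append]
    have h := genTau_check k
    rw [genTauB, Bool.and_eq_true] at h
    refine inner_criterion (mem_CC_of_sameB h.1) fun i => ?_
    have hi := List.all_eq_true.1 h.2 i (List.mem_finRange _)
    rw [Bool.or_eq_true] at hi
    rcases hi with hi | hi
    · exact ⟨false, by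
        rw [fEl, ← el_reverse, ← el_append, ← el_append, el_eq_of_sameB hi]; simp⟩
    · exact ⟨true, by
        rw [fEl, ← el_reverse, ← el_append, ← el_append, el_eq_of_sameB hi, el_append, el_pair]; simp [wP]⟩
  have htop : S.map pairHom = ⊤ :=
    Subgroup.eq_top_of_card_eq _ (by
      rw [card_GO6]
      exact card_of_gens _ fun k => ⟨_, hgen k, pairHom_eq (rel_gen k)⟩)
  have hS : S = ⊤ := by
    rw [← sup_eq_left.2 hker, ← Subgroup.comap_map_eq, htop, Subgroup.comap_top]
  exact (hS ▸ Subgroup.mem_top (⟨g, hg⟩ : ↥CC) : (⟨g, hg⟩ : ↥CC) ∈ S)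

/-- The frame of ten. -/
noncomputable def fA (i : Fin (2 * 5)) : MulAut G22 :=
  if h : (i : ℕ) < 8 then MulAut.conj (fEl ⟨i, h⟩) else if (i : ℕ) = 8 then MulAut.conj d1 else tauA

theorem d2_eq : d2 = d1 * wP := by rw [wP, ← mul_assoc, d1_sq, one_mul]

theorem d1_wP : d1 * wP = wP * d1 := (mem_CC.1 rel_d1_mem)

theorem tau_d1 : tauA * MulAut.conj d1 = MulAut.conj d1 * tauA * jA := by
  rw [tau_conj, tauA_d1, d2_eq, map_mul, mul_assoc, mul_assoc, tau_conj wP, tauA_wP]

theorem tau_fA {i : Fin (2 * 4)} : tauA * MulAut.conj (fEl i) = MulAut.conj (fEl i) * tauA := by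
  rw [tau_conj, tauA_fEl]

theorem fA_low {i : Fin (2 * 5)} (h : (i : ℕ) < 8) : fA i = MulAut.conj (fEl ⟨i, h⟩) := dif_pos h

theorem fA_eight {i : Fin (2 * 5)} (h : (i : ℕ) = 8) : fA i = MulAut.conj d1 := by
  rw [fA, dif_neg (by omega), if_pos h]

theorem fA_nine {i : Fin (2 * 5)} (h : (i : ℕ) = 9) : fA i = tauA := by
  rw [fA, dif_neg (by omega), if_neg (by omega)]

theorem fA_cases (i : Fin (2 * 5)) : (i : ℕ) < 8 ∨ (i : ℕ) = 8 ∨ (i : ℕ) = 9 := by omega

theorem frameA : Frame fA jA where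
  sq i := by
    rcases fA_cases i with h | h | h
    · rw [fA_low h, ← map_mul, frame.sq, map_one]
    · rw [fA_eight h, ← map_mul, d1_sq, map_one]
    · rw [fA_nine h, tauA_sq]
  zsq := by rw [← map_mul, frame.zsq, map_one]
  zne h := frame.zne (conj_injective (h.trans (map_one _).symm))
  zcomm i := by
    rcases fA_cases i with h | h | h
    · rw [fA_low h, ← map_mul, ← map_mul, frame.zcomm]
    · rw [fA_eight h, ← map_mul, ← map_mul, d1_wP]
    · rw [fA_nine h, tau_conj, tauA_wP]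
  rel i j := by
    have hp : ∀ {a b : Fin (2 * 5)}, ((a : ℕ) < 8 ∧ 8 ≤ (b : ℕ)) ∨ ((b : ℕ) < 8 ∧ 8 ≤ (a : ℕ)) → partner a b = false := by
      intro a b h
      unfold partner
      refine decide_eq_false ?_
      rintro ⟨h1, -⟩
      omega
    rcases fA_cases i with hi | hi | hi <;> rcases fA_cases j with hj | hj | hj
    · rw [fA_low hi, fA_low hj, ← map_mul, frame.rel]
      have e : partner (⟨i, hi⟩ : Fin (2 * 4)) ⟨j, hj⟩ = partner i j := by
        simp [partner, Fin.ext_iff]
      rw [e]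
      cases partner i j <;> simp [map_mul]
    · rw [fA_low hi, fA_eight hj, hp (Or.inl ⟨hi, hj.ge⟩), ← map_mul, ← d1_fEl, map_mul]; simp
    · rw [fA_low hi, fA_nine hj, hp (Or.inl ⟨hi, by omega⟩), tau_fA]; simp
    · rw [fA_eight hi, fA_low hj, hp (Or.inr ⟨hj, hi.ge⟩), ← map_mul, d1_fEl, map_mul]; simp
    · rw [fA_eight hi, fA_eight hj, show partner i j = false from decide_eq_false fun h => h.2 (Fin.ext (by omega))]; simp
    · rw [fA_eight hi, fA_nine hj, show partner i j = true from decide_eq_true ⟨by omega, fun h => by have := congrArg Fin.val h; omega⟩]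
      simp only [if_true]
      rw [tau_d1, mul_assoc _ jA jA, ← map_mul, frame.zsq, map_one, mul_one]
    · rw [fA_nine hi, fA_low hj, hp (Or.inr ⟨hj, by omega⟩), tau_fA]; simp
    · rw [fA_nine hi, fA_eight hj, show partner i j = true from decide_eq_true ⟨by omega, fun h => by have := congrArg Fin.val h; omega⟩]
      simp only [if_true]
      rw [tau_d1]
    · rw [fA_nine hi, fA_nine hj, show partner i j = false from decide_eq_false fun h => h.2 (Fin.ext (by omega))]; simp

/-- The extraspecial group in the automorphism group. -/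
noncomputable abbrev QA : Subgroup (MulAut G22) := grpE fA

theorem tauA_mem_QA : tauA ∈ QA :=
  Subgroup.subset_closure ⟨⟨9, by norm_num⟩, fA_nine rfl⟩

theorem mem_QA {α : MulAut G22} :
    α ∈ QA ↔ ∃ q ∈ QQ, α = MulAut.conj q ∨ α = MulAut.conj q * tauA := by
  constructor
  · intro hx
    induction hx using Subgroup.closure_induction with
    | mem x hx =>
      obtain ⟨i, rfl⟩ := hx
      rcases fA_cases i with h | h | h
      · exact ⟨_, EE_le_QQ (Subgroup.subset_closure ⟨_, rfl⟩), Or.inl (fA_low h)⟩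
      · exact ⟨_, d1_mem_QQ, Or.inl (fA_eight h)⟩
      · exact ⟨1, one_mem _, Or.inr (by rw [fA_nine h, map_one, one_mul])⟩
    | one => exact ⟨1, one_mem _, Or.inl (map_one _).symm⟩
    | mul x y _ _ hx hy =>
      obtain ⟨p, hp, rfl | rfl⟩ := hx <;> obtain ⟨q, hq, rfl | rfl⟩ := hy
      · exact ⟨p * q, mul_mem hp hq, Or.inl (map_mul _ _ _).symm⟩
      · exact ⟨p * q, mul_mem hp hq, Or.inr (by rw [map_mul, mul_assoc])⟩
      · exact ⟨p * tauA q, mul_mem hp (tauA_QQ hq), Or.inr (by rw [mul_assoc, tau_conj, ← mul_assoc, map_mul])⟩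
      · exact ⟨p * tauA q, mul_mem hp (tauA_QQ hq), Or.inl (by
          rw [mul_assoc, ← mul_assoc tauA, tau_conj, mul_assoc, tauA_sq, mul_one, map_mul])⟩
    | inv x _ hx =>
      obtain ⟨p, hp, rfl | rfl⟩ := hx
      · exact ⟨p⁻¹, inv_mem hp, Or.inl (map_inv _ _).symm⟩
      · exact ⟨tauA p⁻¹, tauA_QQ (inv_mem hp), Or.inr (by
          rw [mul_inv_rev, ← map_inv, inv_eq_of_mul_eq_one_left tauA_sq, tau_conj])⟩
  · rintro ⟨q, hq, rfl | rfl⟩
    · rw [dom_facts.2] at hq
      obtain ⟨⟨a, x⟩, rfl⟩ := hq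
      show MulAut.conj ((if a.toAdd = 1 then d1 else 1) * (x : G22)) ∈ QA
      rw [map_mul]
      refine mul_mem ?_ ?_
      · split
        · exact Subgroup.subset_closure ⟨⟨8, by norm_num⟩, fA_eight rfl⟩
        · rw [map_one]; exact one_mem _
      · have : ∀ y ∈ EE, MulAut.conj y ∈ QA := fun y hy => by
          induction hy using Subgroup.closure_induction with
          | mem y hy =>
            obtain ⟨i, rfl⟩ := hy
            exact Subgroup.subset_closure ⟨⟨i, by have := i.2; omega⟩, fA_low i.2⟩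
          | one => rw [map_one]; exact one_mem _
          | mul y z _ _ hy hz => rw [map_mul]; exact mul_mem hy hz
          | inv y _ hy => rw [map_inv]; exact inv_mem hy
        exact this _ x.2
    · refine mul_mem ?_ tauA_mem_QA
      rw [dom_facts.2] at hq
      obtain ⟨⟨a, x⟩, rfl⟩ := hq
      show MulAut.conj ((if a.toAdd = 1 then d1 else 1) * (x : G22)) ∈ QA
      rw [map_mul]
      refine mul_mem ?_ ?_
      · split
        · exact Subgroup.subset_closure ⟨⟨8, by norm_num⟩, fA_eight rfl⟩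
        · rw [map_one]; exact one_mem _
      · have : ∀ y ∈ EE, MulAut.conj y ∈ QA := fun y hy => by
          induction hy using Subgroup.closure_induction with
          | mem y hy =>
            obtain ⟨i, rfl⟩ := hy
            exact Subgroup.subset_closure ⟨⟨i, by have := i.2; omega⟩, fA_low i.2⟩
          | one => rw [map_one]; exact one_mem _
          | mul y z _ _ hy hz => rw [map_mul]; exact mul_mem hy hz
          | inv y _ hy => rw [map_inv]; exact inv_mem hy
        exact this _ x.2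

theorem QA_le_CJ : QA ≤ CJ := fun α hα => by
  obtain ⟨q, hq, rfl | rfl⟩ := mem_QA.1 hα
  · exact conj_mem_CJ.2 (QQ_le_CC hq)
  · exact mul_mem (conj_mem_CJ.2 (QQ_le_CC hq)) tauA_mem_CJ

theorem QA_normal : ∀ α ∈ CJ, ∀ x ∈ QA, α * x * α⁻¹ ∈ QA := by
  intro α hα
  have hconj : ∀ g ∈ CC, ∀ x ∈ QA, MulAut.conj g * x * (MulAut.conj g)⁻¹ ∈ QA := by
    intro g hg x hx
    obtain ⟨q, hq, rfl | rfl⟩ := mem_QA.1 hx
    · rw [← map_inv, ← map_mul, ← map_mul]; exact mem_QA.2 ⟨_, QQ_normal g hg q hq, Or.inl rfl⟩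
    · refine mem_QA.2 ⟨g * q * g⁻¹ * (tauA g * g⁻¹)⁻¹, mul_mem (QQ_normal g hg q hq) (inv_mem (tauA_mod hg)), Or.inr ?_⟩
      rw [mul_assoc, mul_assoc (MulAut.conj q), ← map_inv, tau_conj, ← mul_assoc, ← mul_assoc, ← map_mul, ← map_mul]
      congr 2
      rw [map_inv]; group
  obtain ⟨g, hg, rfl | rfl⟩ := mem_CJ_cases hα
  · exact hconj g hg
  · intro x hx
    have h1 : tauA * x * tauA⁻¹ ∈ QA := mul_mem (mul_mem tauA_mem_QA hx) (inv_mem tauA_mem_QA)
    have e : MulAut.conj g * tauA * x * (MulAut.conj g * tauA)⁻¹ =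
        MulAut.conj g * (tauA * x * tauA⁻¹) * (MulAut.conj g)⁻¹ := by group
    rw [e]; exact hconj g hg _ h1

instance QA_subgroupOf_normal : (QA.subgroupOf CJ).Normal :=
  ⟨fun n hn g => QA_normal g g.2 n hn⟩

theorem conj_mem_QA {g : G22} : MulAut.conj g ∈ QA ↔ g ∈ QQ := by
  constructor
  · intro h
    obtain ⟨q, hq, e | e⟩ := mem_QA.1 h
    · exact conj_injective e ▸ hq
    · exfalso
      refine tauA_not_inner ?_
      rw [show tauA = (MulAut.conj q)⁻¹ * MulAut.conj g by rw [e, inv_mul_cancel_left]]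
      exact Subgroup.mul_mem _ (Subgroup.inv_mem _ ⟨_, rfl⟩) ⟨_, rfl⟩
  · exact fun h => mem_QA.2 ⟨g, h, Or.inl rfl⟩

/-- The quotient is the orthogonal group. -/
theorem quot_equiv : Nonempty (↥CJ ⧸ QA.subgroupOf CJ ≃* GO6) := by
  let ι : ↥CC →* ↥CJ ⧸ QA.subgroupOf CJ :=
    (QuotientGroup.mk' _).comp (((MulAut.conj : G22 →* MulAut G22).comp CC.subtype).codRestrict CJ
      fun g => conj_mem_CJ.2 g.2)
  have hk : ι.ker = pairHom.ker := by
    ext g
    rw [pairHom_ker, Subgroup.mem_subgroupOf, MonoidHom.mem_ker]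
    exact (QuotientGroup.eq_one_iff _).trans conj_mem_QA
  have hs : Function.Surjective ι := by
    intro x
    obtain ⟨⟨α, hα⟩, rfl⟩ := QuotientGroup.mk_surjective x
    obtain ⟨g, hg, rfl | rfl⟩ := mem_CJ_cases hα
    · exact ⟨⟨g, hg⟩, rfl⟩
    · refine ⟨⟨g, hg⟩, ?_⟩
      show QuotientGroup.mk _ = QuotientGroup.mk _
      rw [QuotientGroup.eq]
      show (MulAut.conj g)⁻¹ * (MulAut.conj g * tauA) ∈ QA
      rw [inv_mul_cancel_left]; exact tauA_mem_QA
  exact ⟨((QuotientGroup.quotientKerEquivOfSurjective ι hs).symm.trans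
    (QuotientGroup.quotientMulEquivOfEq hk)).trans
      (QuotientGroup.quotientKerEquivOfSurjective pairHom pairHom_surjective)⟩

theorem card_QA : Nat.card QA = 2 ^ 11 := by rw [frameA.facts.1]; norm_num

theorem jA_mem_QA : jA ∈ QA := frameA.zmem

theorem center_QA : (Subgroup.center ↥QA).map QA.subtype = Subgroup.zpowers jA := by
  refine le_antisymm ?_ (Subgroup.zpowers_le.2 ⟨⟨jA, jA_mem_QA⟩,
    Subgroup.mem_center_iff.2 fun y => Subtype.ext (frameA.zcentral _ y.2), rfl⟩)
  rintro _ ⟨x, hx, rfl⟩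
  rcases frameA.facts.2.1 x x.2 (fun i => (congrArg Subtype.val (Subgroup.mem_center_iff.1 hx
    ⟨fA i, Subgroup.subset_closure ⟨i, rfl⟩⟩)).symm) with e | e
  · show (x : MulAut G22) ∈ _
    rw [e]; exact one_mem _
  · show (x : MulAut G22) ∈ _
    rw [e]; exact Subgroup.mem_zpowers _

theorem centralizer_QA : Subgroup.centralizer (QA : Set (MulAut G22)) = (Subgroup.center ↥QA).map QA.subtype := by
  refine le_antisymm (fun α hα => ?_) ?_
  · have hc : α ∈ CJ := Subgroup.mem_centralizer_singleton_iff.2 ((hα jA jA_mem_QA).symm)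
    obtain ⟨g, hg, h⟩ := mem_CJ_cases hc
    have hq : g ∈ QQ := mem_QQ_of_commute hg fun i => by
      have h1 := (hα _ (Subgroup.subset_closure ⟨⟨i, by have := i.2; omega⟩, fA_low i.2⟩)).symm
      apply conj_injective
      rcases h with rfl | rfl
      · rw [map_mul, map_mul]; exact h1
      · rw [map_mul, map_mul]
        rw [mul_assoc, tau_fA, ← mul_assoc, ← mul_assoc] at h1
        exact mul_right_cancel h1
    exact ⟨⟨α, mem_QA.2 ⟨g, hq, h⟩⟩, Subgroup.mem_center_iff.2 fun y => Subtype.ext (hα y y.2), rfl⟩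
  · rintro _ ⟨x, hx, rfl⟩ y hy
    exact congrArg Subtype.val (Subgroup.mem_center_iff.1 hx ⟨y, hy⟩)

theorem large : Cfsg.IsLargeExtraspecial QA := by
  have hne : fEl 0 ≠ wP := by
    rw [fEl, wP, ← el_pair]; exact el_ne_of_sameB (by decide +kernel)
  have hf : ∃ h : G22, h * wP * h⁻¹ = fEl 0 := by
    have hx : ptF (fPairs.getD 0 (0, 0)).1 ≠ ptF (fPairs.getD 0 (0, 0)).2 := by decide
    have hc : tr (ptF (fPairs.getD 0 (0, 0)).1) * tr (ptF (fPairs.getD 0 (0, 0)).2) =
        tr (ptF (fPairs.getD 0 (0, 0)).2) * tr (ptF (fPairs.getD 0 (0, 0)).1) := by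
      rw [← el_singleton, ← el_singleton, ← el_append, ← el_append]
      exact el_eq_of_sameB (by decide +kernel)
    obtain ⟨g, ga, gb⟩ := pair_conj hx hc
    refine ⟨g⁻¹, ?_⟩
    have e : fEl 0 = tr (ptF (fPairs.getD 0 (0, 0)).1) * tr (ptF (fPairs.getD 0 (0, 0)).2) := by
      rw [fEl, fL, el_cons, el_singleton]; rfl
    rw [e, wP, ← ga, ← gb]; group
  obtain ⟨h, hh⟩ := hf
  haveI : Finite G22 := Nat.finite_of_card_ne_zero (by rw [CosetEnum.FiTwentyTwo.main.2]; norm_num)
  haveI : Finite (MulAut G22) := Finite.of_injective (fun α : MulAut G22 => (α : G22 → G22)) DFunLike.coe_injective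
  have hcz : Subgroup.centralizer (((Subgroup.center ↥QA).map QA.subtype : Subgroup (MulAut G22)) : Set (MulAut G22)) ≤
      Subgroup.normalizer (QA : Set (MulAut G22)) := by
    intro α hα
    have hc : α ∈ CJ := Subgroup.mem_centralizer_singleton_iff.2
      (hα jA (center_QA ▸ Subgroup.mem_zpowers jA)).symm
    refine Subgroup.mem_normalizer_iff.2 fun x => ⟨QA_normal α hc x, fun hx => ?_⟩
    have := QA_normal α⁻¹ (inv_mem hc) _ hx
    simpa [mul_assoc] using this
  refine (S5422.result QA frameA.extraspecial centralizer_QA hcz 5 (by norm_num)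
    (by rw [card_QA]) (MulAut.conj h) ?_ ?_).2.2
  · intro hn
    have h1 := (Subgroup.mem_normalizer_iff.1 hn jA).1 (center_QA ▸ Subgroup.mem_zpowers jA)
    rw [← map_inv, ← map_mul, ← map_mul, hh, center_QA] at h1
    obtain ⟨k, hk⟩ := Subgroup.mem_zpowers_iff.1 h1
    have hj : jA ^ (2 : ℤ) = 1 := by rw [zpow_two, frameA.zsq]
    rcases Int.even_or_odd k with ⟨m, rfl⟩ | ⟨m, rfl⟩
    · rw [← two_mul, zpow_mul, hj, one_zpow, ← map_one (MulAut.conj : G22 →* MulAut G22)] at hk
      exact d1_ne.1 (by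
        have := frame.facts.2.1 (fEl 0) (Subgroup.subset_closure ⟨0, rfl⟩)
        have h2 := frame.rel 0 1
        rw [← conj_injective hk, one_mul, mul_one, if_pos (by decide)] at h2
        exact (frame.zne (mul_eq_left.1 h2.symm)).elim)
    · rw [zpow_add, zpow_mul, hj, one_zpow, one_mul, zpow_one] at hk
      exact hne (conj_injective hk).symm
  · rw [center_QA, MonoidHom.map_zpowers, Subgroup.zpowers_le]
    show MulAut.conj h * jA * (MulAut.conj h)⁻¹ ∈ QA
    rw [← map_inv, ← map_mul, ← map_mul, hh]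
    exact conj_mem_QA.2 (EE_le_QQ (Subgroup.subset_closure ⟨0, rfl⟩))

end Cfsg.Agent.SporB.FiPair
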