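import Cfsg.Prelude.Def_Transfer
import Cfsg.Agent.PGroup.Frattini
import Mathlib

/-! Commuting pairs of involutions, each pair with the same commutator, generate an extraspecial
group. -/

set_option autoImplicit false

namespace Cfsg.Agent.SporB.FiPair

open scoped commutatorElement

variable {G : Type*} [Group G] [Finite G] {n : ℕ} [NeZero n] {f : Fin (2 * n) → G} {z : G}

/-- Partners. -/
def partner {m : ℕ} (i j : Fin m) : Bool := decide ((i : ℕ) / 2 = (j : ℕ) / 2 ∧ i ≠ j)

/-- The relations. -/
structure Frame {m : ℕ} (f : Fin m → G) (z : G) : Prop where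
  sq : ∀ i, f i * f i = 1
  zsq : z * z = 1
  zne : z ≠ 1
  zcomm : ∀ i, f i * z = z * f i
  rel : ∀ i j, f i * f j = f j * f i * if partner i j then z else 1

/-- Adjoining an involution normalising a subgroup at most doubles it. -/
theorem card_closure_insert_le (H : Subgroup G) (a : G) (ha : a * a = 1)
    (hn : ∀ h ∈ H, a * h * a ∈ H) :
    Nat.card ↥(Subgroup.closure (insert a (H : Set G))) ≤ 2 * Nat.card H := by
  have hai : a⁻¹ = a := inv_eq_of_mul_eq_one_left ha
  let K : Subgroup G :=
    { carrier := {x | x ∈ H ∨ x * a ∈ H}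
      one_mem' := Or.inl H.one_mem
      mul_mem' := by
        rintro x y (hx | hx) (hy | hy)
        · exact Or.inl (H.mul_mem hx hy)
        · exact Or.inr (by rw [mul_assoc]; exact H.mul_mem hx hy)
        · exact Or.inr (by
            have := H.mul_mem hx (hn y hy)
            rwa [show x * a * (a * y * a) = x * (a * a) * y * a by simp [mul_assoc], ha, mul_one] at this)
        · exact Or.inl (by
            have := H.mul_mem hx (hn _ hy)
            rwa [show x * a * (a * (y * a) * a) = x * (a * a) * y * (a * a) by simp [mul_assoc], ha,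
              mul_one, mul_one] at this)
      inv_mem' := by
        rintro x (hx | hx)
        · exact Or.inl (H.inv_mem hx)
        · exact Or.inr (by
            have := hn _ (H.inv_mem hx)
            rwa [mul_inv_rev, hai, show a * (a * x⁻¹) * a = a * a * x⁻¹ * a by simp [mul_assoc], ha,
              one_mul] at this) }
  have hle : Subgroup.closure (insert a (H : Set G)) ≤ K := by
    rw [Subgroup.closure_le]
    rintro x (rfl | hx)
    · exact Or.inr (by rw [ha]; exact H.one_mem)
    · exact Or.inl hx
  refine (Subgroup.card_le_of_le hle).trans ?_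
  have hsurj : Function.Surjective (fun p : Bool × H => (⟨(p.2 : G) * (if p.1 then a else 1), by
      cases p.1
      · exact Or.inl (by simp)
      · exact Or.inr (by simp [mul_assoc, ha])⟩ : K)) := by
    rintro ⟨x, hx | hx⟩
    · exact ⟨(false, ⟨x, hx⟩), Subtype.ext (by simp)⟩
    · exact ⟨(true, ⟨x * a, hx⟩), Subtype.ext (by simp [mul_assoc, ha])⟩
  refine (Nat.card_le_card_of_surjective _ hsurj).trans ?_
  rw [Nat.card_prod, Nat.card_eq_fintype_card (α := Bool), Fintype.card_bool]

/-- The generated group. -/
def grpE {m : ℕ} (f : Fin m → G) : Subgroup G := Subgroup.closure (Set.range f)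

theorem two_le : 2 ≤ 2 * n := by have := NeZero.pos n; omega

/-- The first member of the first pair. -/
def i0 : Fin (2 * n) := ⟨0, by have := @two_le n _; omega⟩

/-- The second member of the first pair. -/
def i1 : Fin (2 * n) := ⟨1, by have := @two_le n _; omega⟩

theorem partner_01 : partner (i0 (n := n)) i1 = true := by
  simp [partner, i0, i1]

theorem Frame.zmem (h : Frame f z) : z ∈ grpE f := by
  have h1 := h.rel i0 i1
  rw [if_pos partner_01] at h1
  have e : z = (f i1 * f i0)⁻¹ * (f i0 * f i1) := by rw [h1]; group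
  rw [e]
  exact Subgroup.mul_mem _ (Subgroup.inv_mem _ (Subgroup.mul_mem _ (Subgroup.subset_closure ⟨i1, rfl⟩)
    (Subgroup.subset_closure ⟨i0, rfl⟩))) (Subgroup.mul_mem _ (Subgroup.subset_closure ⟨i0, rfl⟩)
    (Subgroup.subset_closure ⟨i1, rfl⟩))

/-- The chain of subgroups. -/
def chainE {m : ℕ} (f : Fin m → G) (z : G) (k : ℕ) : Subgroup G :=
  Subgroup.closure ({z} ∪ f '' {i | (i : ℕ) < k})

theorem Frame.card_le (h : Frame f z) : Nat.card ↥(grpE f) ≤ 2 * 2 ^ (2 * n) := by
  have step : ∀ k ≤ 2 * n, Nat.card ↥(chainE f z k) ≤ 2 * 2 ^ k := by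
    intro k
    induction k with
    | zero =>
      intro _
      have : chainE f z 0 = Subgroup.zpowers z := by
        rw [chainE, Subgroup.zpowers_eq_closure]; congr 1; simp
      rw [this, Nat.card_zpowers]
      exact (orderOf_le_of_pow_eq_one (by norm_num : 0 < 2) (by rw [pow_two, h.zsq])).trans (by norm_num)
    | succ k ih =>
      intro hk
      have hk' : k < 2 * n := hk
      let a : Fin (2 * n) := ⟨k, hk'⟩
      have hn : ∀ x ∈ chainE f z k, f a * x * f a ∈ chainE f z k := by
        intro x hx
        induction hx using Subgroup.closure_induction with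
        | mem x hx =>
          rcases hx with hx | ⟨i, hi, rfl⟩
          · rw [Set.mem_singleton_iff] at hx; subst hx
            rw [h.zcomm, mul_assoc, h.sq, mul_one]
            exact Subgroup.subset_closure (Or.inl rfl)
          · rw [h.rel a i]
            have : f i * f a * (if partner a i then z else 1) * f a =
                f i * (if partner a i then z else 1) := by
              cases partner a i
              · simp [mul_assoc, h.sq]
              · simp only [if_true]
                rw [mul_assoc (f i * f a), ← h.zcomm, ← mul_assoc, mul_assoc (f i), h.sq, mul_one]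
            rw [this]
            refine Subgroup.mul_mem _ (Subgroup.subset_closure (Or.inr ⟨i, hi, rfl⟩)) ?_
            split
            · exact Subgroup.subset_closure (Or.inl rfl)
            · exact Subgroup.one_mem _
        | one => rw [mul_one, h.sq]; exact Subgroup.one_mem _
        | mul x y _ _ hx hy =>
          have : f a * (x * y) * f a = (f a * x * f a) * (f a * y * f a) := by
            rw [show f a * x * f a * (f a * y * f a) = f a * x * (f a * f a) * y * f a by
              simp [mul_assoc], h.sq]
            simp [mul_assoc]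
          rw [this]; exact Subgroup.mul_mem _ hx hy
        | inv x _ hx =>
          have : f a * x⁻¹ * f a = (f a * x * f a)⁻¹ := by
            rw [mul_inv_rev, mul_inv_rev, inv_eq_of_mul_eq_one_left (h.sq a), mul_assoc]
          rw [this]; exact Subgroup.inv_mem _ hx
      have hle : chainE f z (k + 1) ≤ Subgroup.closure (insert (f a) (chainE f z k : Set G)) := by
        rw [chainE, Subgroup.closure_le]
        rintro x (hx | ⟨i, hi, rfl⟩)
        · exact Subgroup.subset_closure (Or.inr (Subgroup.subset_closure (Or.inl hx)))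
        · rcases Nat.lt_succ_iff_lt_or_eq.1 (show (i : ℕ) < k + 1 from hi) with h1 | h1
          · exact Subgroup.subset_closure (Or.inr (Subgroup.subset_closure (Or.inr ⟨i, h1, rfl⟩)))
          · exact Subgroup.subset_closure (Or.inl (by rw [show i = a from Fin.ext h1]))
      calc Nat.card ↥(chainE f z (k + 1))
          ≤ 2 * Nat.card ↥(chainE f z k) := (Subgroup.card_le_of_le hle).trans
            (card_closure_insert_le _ _ (h.sq a) hn)
        _ ≤ 2 * (2 * 2 ^ k) := Nat.mul_le_mul_left 2 (ih (by omega))
        _ = 2 * 2 ^ (k + 1) := by ring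
  refine (Subgroup.card_le_of_le ?_).trans (step (2 * n) le_rfl)
  exact Subgroup.closure_mono fun x ⟨i, hi⟩ => Or.inr ⟨i, i.2, hi⟩

theorem Frame.zcentral (h : Frame f z) : ∀ x ∈ grpE f, x * z = z * x := by
  intro x hx
  induction hx using Subgroup.closure_induction with
  | mem x hx => obtain ⟨i, rfl⟩ := hx; exact h.zcomm i
  | one => simp
  | mul x y _ _ hx hy => rw [mul_assoc, hy, ← mul_assoc, hx, mul_assoc]
  | inv x _ hx => exact ((show Commute x z from hx).inv_left).eq

/-- The commutator with the `i`-th generator. -/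
theorem Frame.chi (h : Frame f z) : ∀ x ∈ grpE f, ∀ i, ∃ b : Bool, x * f i = f i * x * if b then z else 1 := by
  intro x hx
  induction hx using Subgroup.closure_induction with
  | mem x hx => obtain ⟨j, rfl⟩ := hx; exact fun i => ⟨_, h.rel j i⟩
  | one => exact fun i => ⟨false, by simp⟩
  | mul x y hx' hy' hx hy =>
    intro i
    obtain ⟨b, hb⟩ := hx i
    obtain ⟨c, hc⟩ := hy i
    refine ⟨xor b c, ?_⟩
    have hy0 : y * z = z * y := h.zcentral y hy'
    rw [mul_assoc, hc, show x * (f i * y * if c then z else 1) = x * f i * y * (if c then z else 1) by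
      simp [mul_assoc], hb]
    have hy1 : ∀ t, z * (y * t) = y * (z * t) := fun t => by rw [← mul_assoc, ← hy0, mul_assoc]
    cases b <;> cases c <;> simp [mul_assoc, hy1, ← hy0, h.zsq]
  | inv x hx' hx =>
    intro i
    obtain ⟨b, hb⟩ := hx i
    refine ⟨b, ?_⟩
    have hc : (if b then z else 1) * x⁻¹ = x⁻¹ * if b then z else 1 := by
      cases b
      · simp
      · exact ((show Commute x z from h.zcentral x hx').inv_left).eq.symm
    have hs : (if b then z else 1) * (if b then z else 1) = (1 : G) := by
      cases b <;> simp [h.zsq]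
    apply mul_left_cancel (a := x)
    rw [mul_inv_cancel_left, show x * (f i * x⁻¹ * if b then z else 1) = x * f i * x⁻¹ * (if b then z else 1) by
      simp [mul_assoc], hb, mul_assoc (f i * x), hc, ← mul_assoc, mul_inv_cancel_right, mul_assoc, hs, mul_one]

/-- The centre is `{1, z}` and the order is 512. -/
theorem Frame.facts (h : Frame f z) :
    Nat.card ↥(grpE f) = 2 * 2 ^ (2 * n) ∧ (∀ x ∈ grpE f, (∀ i, x * f i = f i * x) → x = 1 ∨ x = z) ∧
      ∀ x y : ↥(grpE f), ∀ i, ((⁅x, y⁆ : ↥(grpE f)) : G) * f i = f i * (⁅x, y⁆ : ↥(grpE f)) ∧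
        ((x ^ 2 : ↥(grpE f)) : G) * f i = f i * (x ^ 2 : ↥(grpE f)) := by
  classical
  let E := grpE f
  choose b hb using fun (x : E) (i : Fin (2 * n)) => h.chi x.1 x.2 i
  have hne : ∀ i (x : G) (c d : Bool), x * f i = f i * x * (if c then z else 1) →
      x * f i = f i * x * (if d then z else 1) → c = d := by
    intro i x c d h1 h2
    have := mul_left_cancel (h1.symm.trans h2)
    cases c <;> cases d <;> simp_all [h.zne, h.zne.symm]
  let Ψ : E →* Multiplicative (Fin (2 * n) → ZMod 2) :=
    { toFun := fun x => Multiplicative.ofAdd fun i => if b x i then 1 else 0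
      map_one' := by
        apply congrArg Multiplicative.ofAdd
        funext i
        rw [hne i 1 (b 1 i) false (hb 1 i) (by simp)]
        simp
      map_mul' := fun x y => by
        rw [← ofAdd_add]
        apply congrArg Multiplicative.ofAdd
        funext i
        have hy0 : (y : G) * z = z * y := h.zcentral _ y.2
        have e : ((x * y : E) : G) * f i = f i * (x * y : E) * (if xor (b x i) (b y i) then z else 1) := by
          rw [Subgroup.coe_mul, mul_assoc, hb y i, show (x : G) * (f i * y * if b y i then z else 1) =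
            x * f i * y * (if b y i then z else 1) by simp [mul_assoc], hb x i]
          have hy1 : ∀ t, z * ((y : G) * t) = y * (z * t) := fun t => by rw [← mul_assoc, ← hy0, mul_assoc]
          cases b x i <;> cases b y i <;> simp [mul_assoc, hy1, ← hy0, h.zsq]
        show _ = (if b x i then (1 : ZMod 2) else 0) + (if b y i then 1 else 0)
        rw [hne i _ _ _ (hb (x * y) i) e]
        cases b x i <;> cases b y i <;> decide }
  have hΨf : ∀ j, Ψ ⟨f j, Subgroup.subset_closure ⟨j, rfl⟩⟩ =
      Multiplicative.ofAdd fun i => if partner j i then 1 else 0 := by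
    intro j
    apply congrArg Multiplicative.ofAdd
    funext i
    rw [hne i (f j) _ _ (hb ⟨f j, Subgroup.subset_closure ⟨j, rfl⟩⟩ i) (h.rel j i)]
  have hsurj : Function.Surjective Ψ := by
    intro v
    have hv : v.toAdd = ∑ j : Fin (2 * n), v.toAdd j • fun i => if decide (i = j) then (1 : ZMod 2) else 0 := by
      funext i; simp
    have hp : ∀ j : Fin (2 * n), ∃ k, ∀ i, partner k i = decide (i = j) := fun j => by
      refine ⟨⟨2 * ((j : ℕ) / 2) + (1 - (j : ℕ) % 2), by have := j.2; omega⟩, fun i => ?_⟩
      unfold partner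
      refine decide_eq_decide.2 ?_
      constructor
      · rintro ⟨h1, h2⟩
        have : ((2 * ((j : ℕ) / 2) + (1 - (j : ℕ) % 2) : ℕ)) ≠ (i : ℕ) := fun e => h2 (Fin.ext e)
        exact Fin.ext (by simp only at h1; omega)
      · rintro rfl
        refine ⟨by simp only; omega, fun e => ?_⟩
        have := congrArg Fin.val e
        simp only at this
        omega
    have hall : ∀ j : Fin (2 * n), Multiplicative.ofAdd (fun i => if decide (i = j) then (1 : ZMod 2) else 0) ∈ Ψ.range := by
      intro j
      obtain ⟨k, hk⟩ := hp j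
      exact ⟨_, (hΨf k).trans (congrArg Multiplicative.ofAdd (funext fun i => by rw [hk]))⟩
    have hmem : Multiplicative.ofAdd (∑ j : Fin (2 * n), v.toAdd j • fun i => if decide (i = j) then (1 : ZMod 2) else 0) ∈ Ψ.range := by
      rw [ofAdd_sum]
      refine Subgroup.prod_mem _ fun j _ => ?_
      rcases (by decide : ∀ a : ZMod 2, a = 0 ∨ a = 1) (v.toAdd j) with e | e <;> rw [e]
      · rw [zero_smul]; exact Subgroup.one_mem _
      · rw [one_smul]; exact hall j
    rw [← hv] at hmem
    exact hmem
  have hidx : Ψ.ker.index = 2 ^ (2 * n) := by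
    rw [Subgroup.index_ker, MonoidHom.range_eq_top.2 hsurj, Subgroup.card_top,
      Nat.card_eq_fintype_card]
    simp
  have hcard := Subgroup.card_mul_index Ψ.ker
  rw [hidx] at hcard
  have hker : ∀ x : E, x ∈ Ψ.ker ↔ ∀ i, (x : G) * f i = f i * x := by
    intro x
    rw [MonoidHom.mem_ker]
    constructor
    · intro e i
      have := congrFun (congrArg Multiplicative.toAdd e) i
      have hb' : b x i = false := by
        cases hbi : b x i with
        | false => rfl
        | true => exact absurd this (by simp [Ψ, hbi])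
      have := hb x i
      rw [hb'] at this
      simpa using this
    · intro hx
      apply congrArg Multiplicative.ofAdd
      funext i
      rw [hne i _ _ false (hb x i) (by simpa using hx i)]
      simp
  have hz2 : 2 ≤ Nat.card Ψ.ker := by
    have : Nontrivial Ψ.ker := ⟨⟨⟨⟨z, h.zmem⟩, (hker _).2 fun i => (h.zcomm i).symm⟩, 1,
      fun e => h.zne (congrArg (fun x : Ψ.ker => ((x : E) : G)) e)⟩⟩
    exact Finite.one_lt_card
  have hle : Nat.card E ≤ 2 * 2 ^ (2 * n) := h.card_le
  have hk : Nat.card Ψ.ker = 2 :=
    le_antisymm (Nat.le_of_mul_le_mul_right (hcard ▸ hle) (Nat.two_pow_pos _)) hz2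
  refine ⟨(show Nat.card ↥(grpE f) = 2 * 2 ^ (2 * n) from hcard.symm.trans (by rw [hk])), fun x hx hc => ?_, fun x y i => ⟨(hker _).1 ?_ i, (hker _).1 ?_ i⟩⟩
  rotate_left
  · rw [MonoidHom.mem_ker, map_commutatorElement, commutatorElement_eq_one_iff_mul_comm]; exact mul_comm _ _
  · rw [MonoidHom.mem_ker, map_pow, pow_two]
    apply congrArg Multiplicative.ofAdd
    funext j
    exact CharTwo.add_self_eq_zero _
  rcases eq_or_ne x 1 with e | e
  · exact Or.inl e
  refine Or.inr ?_
  let o : Ψ.ker := 1
  obtain ⟨w, -, hw⟩ := (Nat.card_eq_two_iff' o).1 hk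
  have h1 := hw ⟨⟨x, hx⟩, (hker _).2 hc⟩ fun e' => e (congrArg (fun w : Ψ.ker => ((w : E) : G)) e')
  have h2 := hw ⟨⟨z, h.zmem⟩, (hker _).2 fun i => (h.zcomm i).symm⟩
    fun e' => h.zne (congrArg (fun w : Ψ.ker => ((w : E) : G)) e')
  exact congrArg (fun w : Ψ.ker => ((w : E) : G)) (h1.trans h2.symm)

/-- It is extraspecial. -/
theorem Frame.extraspecial (h : Frame f z) : Cfsg.IsExtraspecial 2 ↥(grpE f) := by
  haveI : Fact (Nat.Prime 2) := ⟨Nat.prime_two⟩
  set E := grpE f
  let zE : E := ⟨z, h.zmem⟩
  have hP : IsPGroup 2 E := IsPGroup.of_card (n := 2 * n + 1) (by rw [h.facts.1, pow_succ, Nat.mul_comm])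
  have hcen : Subgroup.center E = Subgroup.zpowers zE := by
    refine le_antisymm (fun x hx => ?_) (Subgroup.zpowers_le.2 (Subgroup.mem_center_iff.2 fun y =>
      Subtype.ext (h.zcentral _ y.2)))
    rcases h.facts.2.1 x x.2 (fun i => (congrArg Subtype.val
      (Subgroup.mem_center_iff.1 hx ⟨f i, Subgroup.subset_closure ⟨i, rfl⟩⟩)).symm) with e | e
    · rw [show x = 1 from Subtype.ext e]; exact Subgroup.one_mem _
    · rw [show x = zE from Subtype.ext e]; exact Subgroup.mem_zpowers _
  have hzord : orderOf zE = 2 := orderOf_eq_prime (Subtype.ext (by simp [zE, pow_two, h.zsq]))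
    (fun e => h.zne (congrArg Subtype.val e))
  have hzc : zE ∈ commutator E := by
    have e : zE = ⁅(⟨f i0, Subgroup.subset_closure ⟨i0, rfl⟩⟩ : E), ⟨f i1, Subgroup.subset_closure ⟨i1, rfl⟩⟩⁆ := by
      apply Subtype.ext
      have h1 := h.rel i0 i1
      rw [if_pos partner_01] at h1
      show z = f i0 * f i1 * (f i0)⁻¹ * (f i1)⁻¹
      rw [inv_eq_of_mul_eq_one_left (h.sq i0), inv_eq_of_mul_eq_one_left (h.sq i1), h1, mul_assoc (f i1 * f i0),
        ← h.zcomm i0, ← mul_assoc, mul_assoc (f i1), h.sq i0, mul_one, h.zcomm i1, mul_assoc, h.sq i1, mul_one]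
    rw [e]
    exact Subgroup.commutator_mem_commutator (Subgroup.mem_top _) (Subgroup.mem_top _)
  have hmemc : ∀ x : E, (∀ i, (x : G) * f i = f i * x) → x ∈ Subgroup.zpowers zE := fun x hx => by
    rcases h.facts.2.1 x x.2 hx with e | e
    · rw [show x = 1 from Subtype.ext e]; exact Subgroup.one_mem _
    · rw [show x = zE from Subtype.ext e]; exact Subgroup.mem_zpowers _
  have hcle : commutator E ≤ Subgroup.zpowers zE := by
    rw [commutator_eq_closure, Subgroup.closure_le]
    rintro _ ⟨x, y, rfl⟩
    exact hmemc _ fun i => (h.facts.2.2 x y i).1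
  have hceq : commutator E = Subgroup.center E := by
    rw [hcen]; exact le_antisymm hcle (Subgroup.zpowers_le.2 hzc)
  refine ⟨⟨hP, ?_, hceq⟩, by rw [hcen, Nat.card_zpowers, hzord]⟩
  refine le_antisymm ((Cfsg.Agent.PGroup.frattini_le_iff hP).2 ⟨hceq.le, fun x => ?_⟩)
    (hceq.ge.trans (Cfsg.Agent.PGroup.commutator_le_frattini hP))
  rw [hcen]
  exact hmemc _ fun i => (h.facts.2.2 x x i).2

end Cfsg.Agent.SporB.FiPair
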