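import Cfsg.Agent.SporB.FiPair.Lin

/-! A subgroup of the orthogonal group containing the five generators is everything. -/

set_option autoImplicit false

namespace Cfsg.Agent.SporB.FiPair

open Matrix

/-- The action on vectors. -/
noncomputable instance goAct : MulAction GO6 V6 where
  smul := gmv
  one_smul := gmv_one
  mul_smul := gmv_mul

theorem smul_def (M : GO6) (v : V6) : M • v = gmv M v := rfl

/-- The pointwise stabiliser of the first `k` chain vectors. -/
def stabK (k : ℕ) : Subgroup GO6 where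
  carrier := {M | ∀ j : Fin 6, (j : ℕ) < k → M • baseV j = baseV j}
  one_mem' := fun j _ => one_smul _ _
  mul_mem' := fun {a b} ha hb j hj => by rw [mul_smul, hb j hj, ha j hj]
  inv_mem' := fun {a} ha j hj => by rw [inv_smul_eq_iff, ha j hj]

theorem mem_stabK {k : ℕ} {M : GO6} : M ∈ stabK k ↔ ∀ j : Fin 6, (j : ℕ) < k → M • baseV j = baseV j :=
  Iff.rfl

theorem stabK_zero : stabK 0 = ⊤ := top_unique fun M _ j hj => absurd hj (Nat.not_lt_zero _)

theorem stabK_six : stabK 6 = ⊥ := by
  refine le_bot_iff.1 fun M hM => Subgroup.mem_bot.2 (GO6.ext' fun v => ?_)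
  have hd : ∀ v : V6, ∃ n : Fin 64, v = ∑ j : Fin 6, (if (n : ℕ) / 2 ^ (j : ℕ) % 2 = 1 then (1 : ZMod 2) else 0) • baseV j := by
    decide +kernel
  obtain ⟨n, hn⟩ := hd v
  rw [gmv_one, hn]
  show _ *ᵥ _ = _
  rw [Matrix.mulVec_sum]
  refine Finset.sum_congr rfl fun j _ => ?_
  rw [Matrix.mulVec_smul]
  exact congrArg _ (hM j j.2)

theorem card_step (R : Subgroup GO6) (hR : ∀ k, genGO k ∈ R) (k : Fin 6) :
    Nat.card ↥(R ⊓ stabK k) = orbN.getD k 0 * Nat.card ↥(R ⊓ stabK (k + 1)) := by
  classical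
  set H := R ⊓ stabK k with hH
  have hword : ∀ w, wordGO w ∈ R := fun w => by
    refine list_prod_mem fun x hx => ?_
    obtain ⟨j, -, rfl⟩ := List.mem_map.1 hx
    exact hR _
  have horb : MulAction.orbit ↥H (baseV k) = {x | Cand k x} := by
    ext x
    constructor
    · rintro ⟨⟨M, hM⟩, rfl⟩
      change Cand k (gmv M (baseV k))
      refine ⟨fun h0 => ?_, q_gmv _ _, fun j hj => ?_⟩
      · have h1 := congrArg (gmv M⁻¹) h0
        rw [← gmv_mul, inv_mul_cancel, gmv_one] at h1
        have hne : ∀ k : Fin 6, baseV k ≠ 0 := by decide +kernel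
        exact hne k (by rw [h1]; simp [gmv])
      · have e : gmv M (baseV j) = baseV j := hM.2 j hj
        conv_lhs => rw [← e, ← gmv_add, q_gmv]
    · intro hx
      have hx' : Cand k (dec6 (enc6 x)) := by rw [(dec6_enc6 x).1]; exact hx
      obtain ⟨⟨m, w⟩, hp, hm⟩ := List.mem_map.1 (chain_cover k ⟨_, (dec6_enc6 x).2⟩ hx')
      simp only at hm
      obtain ⟨h1, h2⟩ := chain_words k _ hp
      refine ⟨⟨wordGO w, hword w, fun j hj => ?_⟩, ?_⟩
      · show gmv (wordGO w) (baseV j) = _
        rw [baseV, (wordGO_spec w _ (baseV_lt j)).1, h1 j hj]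
      · show gmv (wordGO w) (baseV k) = x
        rw [baseV, (wordGO_spec w _ (baseV_lt k)).1, h2, hm, (dec6_enc6 x).1]
  have hcard : Nat.card (MulAction.orbit ↥H (baseV k)) = orbN.getD k 0 := by
    rw [horb, ← cand_card k, ← Nat.card_eq_finsetCard]
    refine Nat.card_congr
      { toFun := fun x => ⟨enc6 x.1, Finset.mem_filter.2 ⟨Finset.mem_range.2 (dec6_enc6 x.1).2,
          by rw [(dec6_enc6 x.1).1]; exact x.2⟩⟩
        invFun := fun n => ⟨dec6 n.1, (Finset.mem_filter.1 n.2).2⟩
        left_inv := fun x => Subtype.ext (dec6_enc6 x.1).1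
        right_inv := fun n => Subtype.ext (enc6_dec6 ⟨n.1, Finset.mem_range.1 (Finset.mem_filter.1 n.2).1⟩) }
  have hstab : Nat.card (MulAction.stabilizer ↥H (baseV k)) = Nat.card ↥(R ⊓ stabK (k + 1)) := by
    refine Nat.card_congr
      { toFun := fun M => ⟨M.1.1, M.1.2.1, fun j hj => by
          rcases Nat.lt_succ_iff_lt_or_eq.1 hj with h | h
          · exact M.1.2.2 j h
          · rw [Fin.ext h]; exact M.2⟩
        invFun := fun M => ⟨⟨M.1, M.2.1, fun j hj => M.2.2 j (Nat.lt_succ_of_lt hj)⟩,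
          M.2.2 k (Nat.lt_succ_self _)⟩
        left_inv := fun _ => rfl
        right_inv := fun _ => rfl }
  rw [← hcard, ← hstab, ← Nat.card_prod]
  exact Nat.card_congr (MulAction.orbitProdStabilizerEquivGroup ↥H (baseV k)).symm

theorem card_of_gens (R : Subgroup GO6) (hR : ∀ k, genGO k ∈ R) : Nat.card ↥R = 51840 := by
  have e0 : R ⊓ stabK 0 = R := by rw [stabK_zero, inf_top_eq]
  have e6 : Nat.card ↥(R ⊓ stabK 6) = 1 := by rw [stabK_six, inf_bot_eq, Subgroup.card_bot]
  have h0 := card_step R hR 0; have h1 := card_step R hR 1; have h2 := card_step R hR 2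
  have h3 := card_step R hR 3; have h4 := card_step R hR 4; have h5 := card_step R hR 5
  simp only [Fin.val_zero, Fin.val_one, Fin.val_two, orbN, List.getD_cons_zero, List.getD_cons_succ,
    show ((3 : Fin 6) : ℕ) = 3 from rfl, show ((4 : Fin 6) : ℕ) = 4 from rfl,
    show ((5 : Fin 6) : ℕ) = 5 from rfl, Nat.reduceAdd] at h0 h1 h2 h3 h4 h5
  rw [e0, h1, h2, h3, h4, h5, e6] at h0
  exact h0

theorem card_GO6 : Nat.card GO6 = 51840 := by
  rw [← Subgroup.card_top (G := GO6)]
  exact card_of_gens ⊤ fun k => Subgroup.mem_top _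

theorem closure_gens : Subgroup.closure (Set.range genGO) = ⊤ :=
  Subgroup.eq_top_of_card_eq _ (by
    rw [card_GO6]; exact card_of_gens _ fun k => Subgroup.subset_closure (Set.mem_range_self k))

end Cfsg.Agent.SporB.FiPair
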