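import Cfsg.Agent.SporB.FiPair.Basic

/-! The order of the centraliser of the product of two commuting transpositions. -/

set_option autoImplicit false
set_option maxRecDepth 100000

namespace Cfsg.Agent.SporB.FiPair

open Cfsg.Agent.CosetCert Cfsg.Agent.SporB.FischerU

local notation "G22" => Cfsg.Spor.Fi22

/-- The first transposition. -/
noncomputable abbrev d1 : G22 := tr (ptF 0)

/-- The second transposition. -/
noncomputable abbrev d2 : G22 := tr (ptF 6)

/-- The centraliser of the product. -/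
noncomputable abbrev CC : Subgroup G22 := Subgroup.centralizer ({d1 * d2} : Set G22)

/-- The centraliser of both. -/
noncomputable abbrev KK : Subgroup G22 := Subgroup.centralizer ({d1, d2} : Set G22)

theorem el_pair : el [0, 6] = d1 * d2 := by simp [el]

theorem comm_tr_iff (g : G22) (z : Fin 3510) : g * tr z = tr z * g ↔ pRep g z = z := by
  rw [← mul_inv_eq_iff_eq_mul, conj_tr]
  exact ⟨fun h => tr_injective h, fun h => by rw [h]⟩

theorem mem_KK {g : G22} : g ∈ KK ↔ pRep g (ptF 0) = ptF 0 ∧ pRep g (ptF 6) = ptF 6 := by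
  rw [Subgroup.mem_centralizer_iff, ← comm_tr_iff, ← comm_tr_iff]
  simp [eq_comm]

theorem mem_CC {g : G22} : g ∈ CC ↔ g * (d1 * d2) = d1 * d2 * g :=
  Subgroup.mem_centralizer_singleton_iff

theorem mem_CC_of_sameB {l : List ℕ} (h : sameB (l ++ [0, 6]) ([0, 6] ++ l) = true) : el l ∈ CC := by
  rw [mem_CC, ← el_pair, ← el_append, ← el_append, el_eq_of_sameB h]

theorem mem_fiSub {g : G22} : g ∈ fiSub ↔ pRep g (ptF 0) = ptF 0 := pRep_mem g

theorem KK_le_fiSub : KK ≤ fiSub := fun _ h => mem_fiSub.2 (mem_KK.1 h).1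

theorem KK_le_CC : KK ≤ CC := by
  intro g hg
  obtain ⟨h1, h2⟩ := mem_KK.1 hg
  rw [← comm_tr_iff] at h1 h2
  rw [mem_CC, ← mul_assoc, h1, mul_assoc, h2, ← mul_assoc]

theorem card_fiSub : Nat.card fiSub = 18393661440 := by
  have hidx : fiSub.index = 3510 := fiSub_eq ▸
    (CosetCert.index_eq CosetCert.FiTwentyTwoU.valid CosetCert.FiTwentyTwoU.word_letters
      CosetCert.FiTwentyTwoU.base_letters).trans (by decide +kernel)
  have h := Subgroup.card_mul_index fiSub
  rw [hidx, CosetEnum.FiTwentyTwo.main.2] at h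
  omega

/-- The points commuting with the first transposition, other than itself. -/
noncomputable def comB (x : ℕ) : Bool := Nat.beq (FiTwentyTwoU.data.run [1] x) x && !Nat.beq x 0

theorem com_count : ((Finset.range 3510).filter fun x => comB x = true).card = 693 := by
  decide +kernel

theorem comB_iff (x : Fin 3510) : comB x = true ↔ pRep d1 x = x ∧ x ≠ ptF 0 := by
  have h : (pRep d1 x : ℕ) = FiTwentyTwoU.data.run [1] x := by
    rw [show d1 = transA from tr_zero, transA, pRep_val _ (by decide +kernel)]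
  rw [comB, Bool.and_eq_true, Bool.not_eq_true', Nat.beq_eq, ← Bool.not_eq_true, Nat.beq_eq,
    Fin.ext_iff, h, ne_eq, Fin.ext_iff]
  rfl

/-- The subgroup of index 3510 acts on the points. -/
@[reducible] noncomputable def subAct (H : Subgroup G22) : MulAction ↥H (Fin 3510) :=
  MulAction.compHom (Fin 3510) (pRep.comp H.subtype)

theorem card_KK : Nat.card KK = 26542080 := by
  classical
  letI := subAct fiSub
  have horb : MulAction.orbit ↥fiSub (ptF 6) = {x : Fin 3510 | comB x = true} := by
    ext x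
    constructor
    · rintro ⟨⟨u, hu⟩, rfl⟩
      refine (comB_iff _).2 ⟨?_, fun e => ?_⟩
      · change pRep d1 (pRep u (ptF 6)) = pRep u (ptF 6)
        have hu' : u * d1 = d1 * u := (comm_tr_iff _ _).2 (mem_fiSub.1 hu)
        have h6 : pRep d1 (ptF 6) = ptF 6 := ((comB_iff _).1 (by decide +kernel)).1
        rw [← Equiv.Perm.mul_apply, ← map_mul, ← hu', map_mul, Equiv.Perm.mul_apply, h6]
      · change pRep u (ptF 6) = _ at e
        rw [← mem_fiSub.1 hu] at e
        exact absurd ((pRep u).injective e) (by decide)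
    · intro hx
      obtain ⟨h1, h2⟩ := (comB_iff x).1 hx
      have e6 : pRep (val [2, 1, 3, 2]) 0 = ptF 6 := Fin.ext (by
        rw [pRep_val _ (by decide +kernel)]; decide +kernel)
      rcases fi_data.choose_spec.2.2.2 x with h | ⟨u, hu, h⟩ | ⟨u, hu, h⟩
      · exact absurd h h2
      · exact ⟨⟨u, hu⟩, by rw [← h, map_mul, Equiv.Perm.mul_apply]; exact congrArg _ e6.symm⟩
      · exfalso
        have hu' : u * d1 = d1 * u := (comm_tr_iff _ _).2 (mem_fiSub.1 hu)
        rw [← h] at h1
        change pRep d1 (pRep (u * val [2]) 0) = pRep (u * val [2]) 0 at h1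
        rw [map_mul, Equiv.Perm.mul_apply, ← Equiv.Perm.mul_apply (pRep d1), ← map_mul, ← hu', map_mul,
          Equiv.Perm.mul_apply] at h1
        have h3 : ¬ comB (pRep (val [2]) 0 : Fin 3510) = true := by
          rw [pRep_val _ (by decide +kernel)]; decide +kernel
        refine h3 ((comB_iff _).2 ⟨(pRep u).injective h1, fun e => ?_⟩)
        have e' := congrArg Fin.val e
        rw [pRep_val _ (by decide +kernel)] at e'
        revert e'
        decide +kernel
  have hcard : Nat.card (MulAction.orbit ↥fiSub (ptF 6)) = 693 := by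
    rw [horb, ← com_count, ← Nat.card_eq_finsetCard]
    exact Nat.card_congr
      { toFun := fun x => ⟨x.1.1, Finset.mem_filter.2 ⟨Finset.mem_range.2 x.1.2, x.2⟩⟩
        invFun := fun n => ⟨⟨n.1, Finset.mem_range.1 (Finset.mem_filter.1 n.2).1⟩, (Finset.mem_filter.1 n.2).2⟩
        left_inv := fun _ => rfl
        right_inv := fun _ => rfl }
  have hstab : Nat.card (MulAction.stabilizer ↥fiSub (ptF 6)) = Nat.card KK :=
    Nat.card_congr
      { toFun := fun g => ⟨g.1.1, mem_KK.2 ⟨mem_fiSub.1 g.1.2, g.2⟩⟩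
        invFun := fun g => ⟨⟨g.1, KK_le_fiSub g.2⟩, (mem_KK.1 g.2).2⟩
        left_inv := fun _ => rfl
        right_inv := fun _ => rfl }
  have h := Nat.card_congr (MulAction.orbitProdStabilizerEquivGroup ↥fiSub (ptF 6))
  rw [Nat.card_prod, hcard, hstab, card_fiSub] at h
  omega

/-- A signature of the image of a few test points. -/
noncomputable def sigOf (l : List ℕ) : ℕ :=
  act l (testPts.getD 0 0) + 3510 * (act l (testPts.getD 1 0) + 3510 * act l (testPts.getD 2 0))

theorem fix_check : allB (fun x => Nat.ble 3510 x || !Nat.beq (act [0, 6] x) x || fixL.elem x) 12 0 = true := by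
  decide +kernel

theorem sig_check : fixL.map (fun y => sigOf [y]) = sigL := by decide +kernel

theorem pair_check : fixL.all (fun x => Nat.beq x 0 || Nat.beq x 6 || !(sigL.elem (sigOf [x, 0, 6]))) = true := by
  decide +kernel

theorem swap_mem : el [3, 2] ∈ CC ∧ pRep (el [3, 2]) (ptF 0) = ptF 6 ∧ pRep (el [3, 2]) (ptF 6) = ptF 0 :=
  ⟨mem_CC_of_sameB (by decide +kernel), Fin.ext (by rw [pRep_el]; decide +kernel),
    Fin.ext (by rw [pRep_el]; decide +kernel)⟩

theorem ptF_val (x : Fin 3510) : ptF x = x := Fin.ext (Nat.mod_eq_of_lt x.2)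

/-- The centraliser of the product permutes the two transpositions. -/
theorem image_pair {c : G22} (hc : c ∈ CC) : pRep c (ptF 0) = ptF 0 ∨ pRep c (ptF 0) = ptF 6 := by
  set x := pRep c (ptF 0)
  set y := pRep c (ptF 6)
  have e : tr x * tr y = d1 * d2 := by
    rw [show tr x = c * d1 * c⁻¹ from (conj_tr c _).symm, show tr y = c * d2 * c⁻¹ from (conj_tr c _).symm,
      show c * d1 * c⁻¹ * (c * d2 * c⁻¹) = c * (d1 * d2) * c⁻¹ by group, mem_CC.1 hc, mul_inv_cancel_right]
  have hw : ∀ p, pRep (d1 * d2) p = p → pRep (d1 * d2) (pRep c p) = pRep c p := fun p hp => by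
    rw [← Equiv.Perm.mul_apply, ← map_mul, ← mem_CC.1 hc, map_mul, Equiv.Perm.mul_apply, hp]
  have hfix : ∀ p, pRep (d1 * d2) p = p → (p : ℕ) ∈ fixL := fun p hp => by
    have h := allB_spec_zero fix_check (by norm_num : 3510 ≤ 2 ^ 12) p.2
    rw [Bool.or_eq_true, Bool.or_eq_true, Bool.not_eq_true'] at h
    rcases h with (h | h) | h
    · exact absurd (Nat.le_of_ble_eq_true h) (not_le.2 p.2)
    · have := congrArg Fin.val hp
      rw [← el_pair, pRep_el] at this
      rw [Nat.beq_eq.mpr this] at h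
      exact absurd h (by decide)
    · exact List.mem_of_elem_eq_true h
  have h0 : pRep (d1 * d2) (ptF 0) = ptF 0 := Fin.ext (by rw [← el_pair, pRep_el]; decide +kernel)
  have h6 : pRep (d1 * d2) (ptF 6) = ptF 6 := Fin.ext (by rw [← el_pair, pRep_el]; decide +kernel)
  have hx := hfix x (hw _ h0)
  have hy := hfix y (hw _ h6)
  have hp := List.all_eq_true.1 pair_check x hx
  simp only [Bool.or_eq_true, Nat.beq_eq] at hp
  rcases hp with (hp | hp) | hp
  · exact Or.inl (Fin.ext hp)
  · exact Or.inr (Fin.ext hp)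
  exfalso
  have e2 : el [(y : ℕ)] = el [(x : ℕ), 0, 6] := by
    rw [el_cons (x : ℕ), el_pair, ptF_val, el_singleton, ptF_val, ← e, ← mul_assoc, tr_mul_self, one_mul]
  have hs : sigOf [(y : ℕ)] = sigOf [(x : ℕ), 0, 6] := by
    have h : ∀ q, act [(y : ℕ)] (q % 3510) = act [(x : ℕ), 0, 6] (q % 3510) := fun q => by
      have h1 := pRep_el [(y : ℕ)] (ptF q)
      rw [e2, pRep_el] at h1
      exact h1.symm
    have q0 : testPts.getD 0 0 % 3510 = testPts.getD 0 0 := by decide
    have q1 : testPts.getD 1 0 % 3510 = testPts.getD 1 0 := by decide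
    have q2 : testPts.getD 2 0 % 3510 = testPts.getD 2 0 := by decide
    unfold sigOf
    rw [← q0, ← q1, ← q2, h, h, h]
  rw [Bool.not_eq_true', ← Bool.not_eq_true] at hp
  refine hp (List.elem_eq_true_of_mem ?_)
  rw [← hs, ← sig_check]
  exact List.mem_map_of_mem hy

theorem mem_KK_of_fix {c : G22} (hc : c ∈ CC) (h : pRep c (ptF 0) = ptF 0) : c ∈ KK := by
  refine mem_KK.2 ⟨h, (comm_tr_iff _ _).1 ?_⟩
  have h1 := (comm_tr_iff c (ptF 0)).2 h
  have h2 := mem_CC.1 hc
  rw [← mul_assoc, h1, mul_assoc, mul_assoc] at h2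
  exact mul_left_cancel h2

theorem card_CC : Nat.card CC = 53084160 := by
  classical
  letI := subAct CC
  have horb : MulAction.orbit ↥CC (ptF 0) = {ptF 0, ptF 6} := by
    ext x
    constructor
    · rintro ⟨⟨c, hc⟩, rfl⟩; exact image_pair hc
    · rintro (rfl | rfl)
      · exact MulAction.mem_orbit_self _
      · exact ⟨⟨_, swap_mem.1⟩, swap_mem.2.1⟩
  have hcard : Nat.card (MulAction.orbit ↥CC (ptF 0)) = 2 := by
    rw [horb, Nat.card_coe_set_eq, Set.ncard_pair (by decide)]
  have hstab : Nat.card (MulAction.stabilizer ↥CC (ptF 0)) = Nat.card KK :=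
    Nat.card_congr
      { toFun := fun g => ⟨g.1.1, mem_KK_of_fix g.1.2 g.2⟩
        invFun := fun g => ⟨⟨g.1, KK_le_CC g.2⟩, (mem_KK.1 g.2).1⟩
        left_inv := fun _ => rfl
        right_inv := fun _ => rfl }
  have h := Nat.card_congr (MulAction.orbitProdStabilizerEquivGroup ↥CC (ptF 0))
  rw [Nat.card_prod, hcard, hstab, card_KK] at h
  omega

theorem index_KK : (KK.subgroupOf CC).index = 2 := by
  have h := Subgroup.card_mul_index (KK.subgroupOf CC)
  rw [Nat.card_congr (Subgroup.subgroupOfEquivOfLe KK_le_CC).toEquiv, card_KK, card_CC] at h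
  omega

end Cfsg.Agent.SporB.FiPair
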