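import Cfsg.Agent.SporB.FiPair.Rel
import Cfsg.Agent.SporB.FiPair.GOFacts
import Cfsg.Agent.SporB.FiPair.Extra

/-! The kernel of the map onto the orthogonal group. -/

set_option autoImplicit false
set_option Elab.async false
set_option maxRecDepth 100000

namespace Cfsg.Agent.SporB.FiPair

open Cfsg.Agent.CosetCert Cfsg.Agent.SporB.FischerU
open scoped commutatorElement

local notation "G22" => Cfsg.Spor.Fi22

instance finite_G22 : Finite G22 :=
  Nat.finite_of_card_ne_zero (by rw [CosetEnum.FiTwentyTwo.main.2]; norm_num)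

/-- The product. -/
noncomputable abbrev wP : G22 := d1 * d2

/-- The list of the `i`-th frame element. -/
def fL (i : Fin 8) : List ℕ := [(fPairs.getD i (0, 0)).1, (fPairs.getD i (0, 0)).2]

/-- The frame. -/
noncomputable def fEl (i : Fin (2 * 4)) : G22 := el (fL i)

theorem frame_check : (∀ i : Fin 8, sameB (fL i ++ fL i) [] = true ∧ sameB (fL i ++ [0, 6]) ([0, 6] ++ fL i) = true) ∧
    (∀ i j : Fin 8, sameB (fL i ++ fL j) (fL j ++ fL i ++ if partner i j then [0, 6] else []) = true) ∧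
    sameB [0, 6, 0, 6] [] = true ∧ sameB [0, 6] [] = false := by decide +kernel

theorem frame : Frame fEl wP where
  sq i := by rw [fEl, ← el_append, el_eq_of_sameB (frame_check.1 i).1, el_nil]
  zsq := by rw [wP, ← el_pair, ← el_append]; exact (el_eq_of_sameB frame_check.2.2.1).trans el_nil
  zne := by rw [wP, ← el_pair, ← el_nil]; exact el_ne_of_sameB frame_check.2.2.2
  zcomm i := by rw [fEl, wP, ← el_pair, ← el_append, ← el_append, el_eq_of_sameB (frame_check.1 i).2]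
  rel i j := by
    rw [fEl, fEl, ← el_append, el_eq_of_sameB (frame_check.2.1 i j), el_append, el_append]
    congr 1
    cases partner i j
    · simp [el]
    · simpa using el_pair

/-- The extraspecial group. -/
noncomputable abbrev EE : Subgroup G22 := grpE fEl

theorem card_EE : Nat.card EE = 512 := frame.facts.1

theorem gen_invol : ∀ k : Fin 5, genGO k * genGO k = 1 := by
  have h : ∀ k : Fin 5, ∀ n : Fin 64, ap (colsL.getD k []) (ap (colsL.getD k []) n) = n := by decide +kernel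
  intro k
  refine GO6.ext' fun v => ?_
  obtain ⟨hv, hlt⟩ := dec6_enc6 v
  rw [gmv_one, ← hv, gmv_mul]
  have h1 := (gens_ok k).1 ⟨_, hlt⟩
  change gmv (genGO k) (dec6 (enc6 v)) = _ ∧ _ at h1
  rw [h1.1]
  have h2 := (gens_ok k).1 ⟨_, h1.2⟩
  change gmv (genGO k) (dec6 (ap (colsL.getD k []) (enc6 v))) = _ ∧ _ at h2
  rw [h2.1, h k ⟨_, hlt⟩]

theorem wordGO_append (a b : List ℕ) : wordGO (a ++ b) = wordGO a * wordGO b := by simp [wordGO]

theorem wordGO_reverse (w : List ℕ) : wordGO w.reverse = (wordGO w)⁻¹ := by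
  induction w with
  | nil => simp [wordGO]
  | cons k w ih =>
    rw [List.reverse_cons, wordGO_append, ih, show wordGO (k :: w) = genGO (ix k) * wordGO w by simp [wordGO],
      mul_inv_rev, show wordGO [k] = genGO (ix k) by simp [wordGO], inv_eq_of_mul_eq_one_left (gen_invol (ix k))]

theorem wordGO_eq_one {w : List ℕ} (h : ∀ n : Fin 64, apW w n = n) : wordGO w = 1 := by
  refine GO6.ext' fun v => ?_
  obtain ⟨hv, hlt⟩ := dec6_enc6 v
  rw [gmv_one, ← hv, (wordGO_spec w _ hlt).1, h ⟨_, hlt⟩]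

/-- The word of the map of a line transposition. -/
def lineMap (a : ℕ) : List ℕ := trans a ++ [0] ++ (trans a).reverse

theorem lineMap_eq (a : ℕ) : wordGO (lineMap a) = wordGO (trans a) * genGO 0 * (wordGO (trans a))⁻¹ := by
  rw [lineMap, wordGO_append, wordGO_append, wordGO_reverse, show wordGO [0] = genGO 0 by simp [wordGO, ix]]

theorem fEl_line : ∀ i : Fin 8, (fPairs.getD i (0, 0)).1 ∈ [40, 43, 62, 66, 120, 154, 424, 434, 539, 550, 3280, 3399] ∧
    (fPairs.getD i (0, 0)).2 ∈ [40, 43, 62, 66, 120, 154, 424, 434, 539, 550, 3280, 3399] ∧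
    ∀ n : Fin 64, apW (lineMap (fPairs.getD i (0, 0)).1 ++ lineMap (fPairs.getD i (0, 0)).2) n = n := by
  decide +kernel

theorem rel_f (i : Fin (2 * 4)) : fEl i ∈ CC ∧ Rel (fEl i) 1 := by
  obtain ⟨ha, hb, hn⟩ := fEl_line i
  obtain ⟨a1, a2⟩ := rel_line ha
  obtain ⟨b1, b2⟩ := rel_line hb
  have e : fEl i = tr (ptF (fPairs.getD i (0, 0)).1) * tr (ptF (fPairs.getD i (0, 0)).2) := by
    rw [fEl, fL, el_cons, el_singleton]
  rw [e]
  refine ⟨mul_mem a1 b1, ?_⟩
  have h := a2.mul b2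
  rwa [← lineMap_eq, ← lineMap_eq, ← wordGO_append, wordGO_eq_one hn] at h

/-- Elements inducing the identity. -/
noncomputable def QQ : Subgroup G22 := toGO.ker.map relDom.subtype

theorem mem_QQ {g : G22} : g ∈ QQ ↔ g ∈ CC ∧ Rel g 1 := by
  constructor
  · rintro ⟨⟨x, hx⟩, hk, rfl⟩
    refine ⟨hx.1, ?_⟩
    obtain ⟨hx1, M, hM⟩ := hx
    rwa [show M = 1 from (toGO_eq (g := ⟨x, hx1, M, hM⟩) hM).symm.trans hk] at hM
  · rintro ⟨h1, h2⟩
    exact ⟨⟨g, h1, 1, h2⟩, toGO_eq h2, rfl⟩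

theorem EE_le_QQ : EE ≤ QQ := by
  refine (Subgroup.closure_le _).2 ?_
  rintro _ ⟨i, rfl⟩
  exact mem_QQ.2 (rel_f i)

theorem d1_mem_QQ : d1 ∈ QQ := mem_QQ.2 ⟨rel_d1_mem, rel_d1⟩

theorem d1_fEl : ∀ i : Fin (2 * 4), d1 * fEl i = fEl i * d1 := by
  have h : ∀ i : Fin 8, sameB ([0] ++ fL i) (fL i ++ [0]) = true := by decide +kernel
  intro i
  rw [fEl, show d1 = el [0] from (el_singleton 0).symm, ← el_append, ← el_append, el_eq_of_sameB (h i)]

theorem d1_comm_EE : ∀ x ∈ EE, d1 * x = x * d1 := by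
  intro x hx
  induction hx using Subgroup.closure_induction with
  | mem x hx => obtain ⟨i, rfl⟩ := hx; exact d1_fEl i
  | one => simp
  | mul x y _ _ hx hy => rw [← mul_assoc, hx, mul_assoc, hy, mul_assoc]
  | inv x _ hx => exact ((show Commute d1 x from hx).inv_right).eq

theorem d1_ne : d1 ≠ 1 ∧ d1 ≠ wP := by
  have h : sameB [0] [] = false ∧ sameB [0] [0, 6] = false := by decide +kernel
  constructor
  · rw [show d1 = el [0] from (el_singleton 0).symm, ← el_nil]; exact el_ne_of_sameB h.1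
  · rw [wP, ← el_pair, show d1 = el [0] from (el_singleton 0).symm]; exact el_ne_of_sameB h.2

theorem d1_not_mem_EE : d1 ∉ EE := fun h => by
  rcases frame.facts.2.1 d1 h d1_fEl with e | e
  · exact d1_ne.1 e
  · exact d1_ne.2 e

theorem d1_sq : d1 * d1 = 1 := tr_mul_self _

/-- The product map. -/
noncomputable def prodHom : Multiplicative (ZMod 2) × EE →* G22 where
  toFun p := (if p.1.toAdd = 1 then d1 else 1) * p.2
  map_one' := by simp
  map_mul' p q := by
    have hc := d1_comm_EE _ p.2.2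
    have hc' : ∀ t, d1 * ((p.2 : G22) * t) = p.2 * (d1 * t) := fun t => by rw [← mul_assoc, hc, mul_assoc]
    obtain ⟨a, x⟩ := p
    obtain ⟨b, y⟩ := q
    rcases (show ∀ a : Multiplicative (ZMod 2), a = Multiplicative.ofAdd 0 ∨ a = Multiplicative.ofAdd 1 by decide) a with rfl | rfl <;>
      rcases (show ∀ a : Multiplicative (ZMod 2), a = Multiplicative.ofAdd 0 ∨ a = Multiplicative.ofAdd 1 by decide) b with rfl | rfl <;>
      simp [mul_assoc, hc', ← mul_assoc d1 d1, d1_sq, show ((1 : ZMod 2) + 1) = 0 from by decide]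

theorem prodHom_injective : Function.Injective prodHom := by
  rw [injective_iff_map_eq_one]
  rintro ⟨a, x⟩ h
  rcases (show ∀ a : Multiplicative (ZMod 2), a = Multiplicative.ofAdd 0 ∨ a = Multiplicative.ofAdd 1 by decide) a with rfl | rfl
  · refine Prod.ext rfl (Subtype.ext ?_)
    simpa [prodHom] using h
  · exfalso
    have e : d1 * (x : G22) = 1 := by simpa [prodHom] using h
    exact d1_not_mem_EE (by rw [eq_inv_of_mul_eq_one_left e]; exact EE.inv_mem x.2)

theorem card_range_prodHom : Nat.card prodHom.range = 1024 := by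
  rw [← Nat.card_congr (MonoidHom.ofInjective prodHom_injective).toEquiv, Nat.card_prod, card_EE,
    Nat.card_eq_fintype_card, Fintype.card_multiplicative, ZMod.card]

theorem range_le_QQ : prodHom.range ≤ QQ := by
  rintro _ ⟨⟨a, x⟩, rfl⟩
  refine mul_mem ?_ (EE_le_QQ x.2)
  split
  · exact d1_mem_QQ
  · exact one_mem _

theorem range_toGO : toGO.range = ⊤ :=
  Subgroup.eq_top_of_card_eq _ (by
    rw [card_GO6]
    exact card_of_gens _ fun k => ⟨⟨genEl k, gen_mem_CC k, _, rel_gen k⟩, toGO_eq (rel_gen k)⟩)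

theorem dom_facts : relDom = CC ∧ QQ = prodHom.range := by
  have h1 : Nat.card relDom = Nat.card QQ * 51840 := by
    rw [← Subgroup.card_mul_index toGO.ker, Subgroup.index_ker, range_toGO, Subgroup.card_top, card_GO6, QQ,
      Subgroup.card_map_of_injective relDom.subtype_injective]
  have h2 : Nat.card relDom ≤ 53084160 := card_CC ▸ Subgroup.card_le_of_le (fun _ h => h.1)
  have h3 : 1024 ≤ Nat.card QQ := card_range_prodHom ▸ Subgroup.card_le_of_le range_le_QQ
  refine ⟨Subgroup.eq_of_le_of_card_ge (fun _ h => h.1) (by rw [card_CC]; omega),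
    (Subgroup.eq_of_le_of_card_ge range_le_QQ (by rw [card_range_prodHom]; omega)).symm⟩

theorem card_QQ : Nat.card QQ = 1024 := by rw [dom_facts.2, card_range_prodHom]

/-- The map on the whole centraliser. -/
noncomputable def pairHom : ↥CC →* GO6 := toGO.comp (Subgroup.inclusion dom_facts.1.ge)

theorem pairHom_surjective : Function.Surjective pairHom := by
  intro M
  obtain ⟨⟨g, hg⟩, h⟩ := (range_toGO ▸ Subgroup.mem_top M : M ∈ toGO.range)
  exact ⟨⟨g, hg.1⟩, h⟩

theorem pairHom_eq {g : ↥CC} {M : GO6} (h : Rel g M) : pairHom g = M := toGO_eq h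

theorem pairHom_ker : pairHom.ker = QQ.subgroupOf CC := by
  ext g
  rw [MonoidHom.mem_ker, Subgroup.mem_subgroupOf, mem_QQ]
  constructor
  · intro h
    obtain ⟨-, M, hM⟩ := (dom_facts.1.ge g.2 : (g : G22) ∈ relDom)
    exact ⟨g.2, (show M = 1 from (pairHom_eq hM).symm.trans h) ▸ hM⟩
  · exact fun h => pairHom_eq h.2

theorem QQ_le_CC : QQ ≤ CC := fun _ h => (mem_QQ.1 h).1

theorem QQ_le_KK : QQ ≤ KK := by
  rw [dom_facts.2]
  rintro _ ⟨⟨a, x⟩, rfl⟩
  have hd : d1 ∈ KK := mem_KK_of_fix rel_d1_mem (mem_fiSub.1 (mem_fiSub.2 ((comm_tr_iff d1 (ptF 0)).1 rfl)))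
  refine mul_mem ?_ ?_
  · split
    · exact hd
    · exact one_mem _
  · refine mem_KK_of_fix (QQ_le_CC (EE_le_QQ x.2)) ((comm_tr_iff _ _).1 (d1_comm_EE _ x.2).symm)

theorem QQ_normal : ∀ c ∈ CC, ∀ x ∈ QQ, c * x * c⁻¹ ∈ QQ := by
  intro c hc x hx
  have hn : pairHom.ker.Normal := inferInstance
  have h := hn.conj_mem ⟨x, QQ_le_CC hx⟩ (by rw [pairHom_ker]; exact hx) ⟨c, hc⟩
  rw [pairHom_ker] at h
  exact h

/-- An element acting on the frame as an element of the extraspecial group induces the identity. -/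
theorem inner_criterion {c : G22} (hc : c ∈ CC) (h : ∀ i, ∃ b : Bool, c * fEl i * c⁻¹ = fEl i * if b then wP else 1) :
    c ∈ QQ := by
  classical
  have hwE : wP ∈ EE := frame.zmem
  have hcw : ∀ c ∈ CC, c * wP * c⁻¹ = wP := fun c hc => by rw [mem_CC.1 hc, mul_inv_cancel_right]
  let V : Subgroup G22 := Subgroup.zpowers wP
  have hV : ∀ c ∈ CC, ∀ v ∈ V, c * v * c⁻¹ = v := fun c hc v hv => by
    obtain ⟨k, rfl⟩ := Subgroup.mem_zpowers_iff.1 hv
    rw [← conj_zpow, hcw c hc]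
  let N : Subgroup ↥CC :=
    { carrier := {c | ∀ x ∈ QQ, (c : G22) * x * (c : G22)⁻¹ * x⁻¹ ∈ V}
      one_mem' := fun x _ => by simp
      mul_mem' := fun {a b} ha hb x hx => by
        have h1 := hb x hx
        have h2 := ha x hx
        have e : (a : G22) * b * x * ((a : G22) * b)⁻¹ * x⁻¹ =
            ((a : G22) * ((b : G22) * x * (b : G22)⁻¹ * x⁻¹) * (a : G22)⁻¹) * ((a : G22) * x * (a : G22)⁻¹ * x⁻¹) := by group
        rw [Subgroup.coe_mul, e, hV a a.2 _ h1]
        exact mul_mem h1 h2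
      inv_mem' := fun {a} ha x hx => by
        have hy : (a : G22)⁻¹ * x * (a : G22) ∈ QQ := by
          simpa using QQ_normal _ (inv_mem a.2) x hx
        have h1 := ha _ hy
        have e : (a : G22) * ((a : G22)⁻¹ * x * a) * (a : G22)⁻¹ * ((a : G22)⁻¹ * x * a)⁻¹ =
            (((a : G22)⁻¹ * x * ((a : G22)⁻¹)⁻¹) * x⁻¹)⁻¹ := by group
        rw [e] at h1
        rw [Subgroup.coe_inv]
        simpa using inv_mem h1 }
  haveI hN : N.Normal := ⟨fun n hn g x hx => by
    have hy := QQ_normal _ (inv_mem g.2) x hx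
    rw [inv_inv] at hy
    have h1 := hn _ hy
    have h2 : (g : G22) * ((n : G22) * ((g : G22)⁻¹ * x * g) * (n : G22)⁻¹ * ((g : G22)⁻¹ * x * g)⁻¹) * (g : G22)⁻¹ ∈ V :=
      (hV g g.2 _ h1).symm ▸ h1
    have e : ((g * n * g⁻¹ : ↥CC) : G22) * x * ((g * n * g⁻¹ : ↥CC) : G22)⁻¹ * x⁻¹ =
        (g : G22) * ((n : G22) * ((g : G22)⁻¹ * x * g) * (n : G22)⁻¹ * ((g : G22)⁻¹ * x * g)⁻¹) * (g : G22)⁻¹ := by
      simp only [Subgroup.coe_mul, Subgroup.coe_inv]; group
    rw [e]; exact h2⟩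
  have hQN : ∀ q : ↥CC, (q : G22) ∈ QQ → q ∈ N := by
    have hgen : ∀ q ∈ QQ, ∀ x ∈ QQ, q * x * q⁻¹ * x⁻¹ ∈ V := by
      intro q hq x hx
      rw [dom_facts.2] at hq hx
      obtain ⟨⟨a, y⟩, rfl⟩ := hq
      obtain ⟨⟨b, u⟩, rfl⟩ := hx
      have e : prodHom (a, y) * prodHom (b, u) * (prodHom (a, y))⁻¹ * (prodHom (b, u))⁻¹ =
          prodHom (1, ⁅y, u⁆) := by
        rw [← map_inv, ← map_inv, ← map_mul, ← map_mul, ← map_mul]
        congr 1
        exact Prod.ext (by simp [mul_comm, mul_left_comm]) (commutatorElement_def y u).symm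
      rw [e]
      have h1 := frame.facts.2.1 _ ((⁅y, u⁆ : EE)).2 (fun i => (frame.facts.2.2 y u i).1)
      have e2 : prodHom (1, ⁅y, u⁆) = ((⁅y, u⁆ : EE) : G22) := by simp [prodHom]
      rw [e2]
      rcases h1 with h1 | h1 <;> rw [h1]
      · exact one_mem _
      · exact Subgroup.mem_zpowers _
    exact fun q hq x hx => hgen _ hq x hx
  have hcN : (⟨c, hc⟩ : ↥CC) ∈ N := by
    let S : Subgroup G22 :=
      { carrier := {x | x ∈ QQ ∧ c * x * c⁻¹ * x⁻¹ ∈ V}
        one_mem' := ⟨one_mem _, by simp⟩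
        mul_mem' := fun {x y} ⟨hx, hx'⟩ ⟨hy, hy'⟩ => ⟨mul_mem hx hy, by
          have e : c * (x * y) * c⁻¹ * (x * y)⁻¹ = (c * x * c⁻¹ * x⁻¹) * (x * (c * y * c⁻¹ * y⁻¹) * x⁻¹) := by group
          rw [e]; exact mul_mem hx' ((hV x (QQ_le_CC hx) _ hy').symm ▸ hy')⟩
        inv_mem' := fun {x} ⟨hx, hx'⟩ => ⟨inv_mem hx, by
          have e : c * x⁻¹ * c⁻¹ * (x⁻¹)⁻¹ = x⁻¹ * (c * x * c⁻¹ * x⁻¹)⁻¹ * (x⁻¹)⁻¹ := by group
          rw [e]; exact (hV _ (QQ_le_CC (inv_mem hx)) _ (inv_mem hx')).symm ▸ inv_mem hx'⟩ }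
    have hE : EE ≤ S := by
      refine (Subgroup.closure_le _).2 ?_
      rintro _ ⟨i, rfl⟩
      refine ⟨EE_le_QQ (Subgroup.subset_closure ⟨i, rfl⟩), ?_⟩
      obtain ⟨b, hb⟩ := h i
      rw [hb, mul_assoc]
      cases b
      · simp
      · have e : wP * (fEl i)⁻¹ = (fEl i)⁻¹ * wP := ((show Commute (fEl i) wP from frame.zcomm i).inv_left).eq.symm
        simp only [if_true, e, mul_inv_cancel_left]
        exact Subgroup.mem_zpowers _
    have hd : d1 ∈ S := by
      refine ⟨d1_mem_QQ, ?_⟩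
      rw [conj_tr]
      rcases image_pair hc with e | e <;> rw [e]
      · simp
      · have e2 : d2 * d1⁻¹ = wP := by
          rw [inv_eq_of_mul_eq_one_left d1_sq]
          exact ((comm_tr_iff d2 (ptF 0)).2 (Fin.ext (by
            rw [show d2 = el [6] from (el_singleton 6).symm, pRep_el]; decide +kernel)))
        rw [e2]
        exact Subgroup.mem_zpowers _
    intro x hx
    rw [dom_facts.2] at hx
    obtain ⟨⟨a, y⟩, rfl⟩ := hx
    refine (mul_mem ?_ (hE y.2) : prodHom (a, y) ∈ S).2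
    split
    · exact hd
    · exact one_mem _
  by_contra hne
  have himg : N.map pairHom ≠ ⊥ := fun h0 => hne (by
    have h1 := Subgroup.mem_map_of_mem pairHom hcN
    rw [h0, Subgroup.mem_bot] at h1
    exact Subgroup.mem_subgroupOf.1 (pairHom_ker ▸ (MonoidHom.mem_ker.2 h1)))
  haveI := hN.map pairHom pairHom_surjective
  have hle := commutator_le_of_normal _ himg
  obtain ⟨ha, -⟩ := rel_line (a := 40) (by decide)
  obtain ⟨hb, -⟩ := rel_line (a := 62) (by decide)
  set g : ↥CC := ⟨_, ha⟩ * ⟨_, hb⟩ * ⟨_, ha⟩ * ⟨_, hb⟩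
  have hg : pairHom g ∈ commutator GO6 := by
    have h40 : (pairHom (⟨_, ha⟩ : ↥CC))⁻¹ = pairHom ⟨_, ha⟩ := by
      rw [← map_inv]; congr 1; exact Subtype.ext (inv_eq_of_mul_eq_one_left (tr_mul_self _))
    have h62 : (pairHom (⟨_, hb⟩ : ↥CC))⁻¹ = pairHom ⟨_, hb⟩ := by
      rw [← map_inv]; congr 1; exact Subtype.ext (inv_eq_of_mul_eq_one_left (tr_mul_self _))
    have : pairHom g = ⁅pairHom (⟨_, ha⟩ : ↥CC), pairHom (⟨_, hb⟩ : ↥CC)⁆ := by
      rw [commutatorElement_def, h40, h62, map_mul, map_mul, map_mul]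
    rw [this]
    exact Subgroup.commutator_mem_commutator (Subgroup.mem_top _) (Subgroup.mem_top _)
  obtain ⟨n, hn, hng⟩ := hle hg
  have hgN : g ∈ N := by
    have hk : n⁻¹ * g ∈ pairHom.ker := by rw [MonoidHom.mem_ker, map_mul, map_inv, hng, inv_mul_cancel]
    have := N.mul_mem hn (hQN _ (Subgroup.mem_subgroupOf.1 (pairHom_ker ▸ hk)))
    rwa [mul_inv_cancel_left] at this
  have h0 := hgN (fEl 0) (EE_le_QQ (Subgroup.subset_closure ⟨0, rfl⟩))
  have hg' : (g : G22) = el [40, 62, 40, 62] := by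
    simp [g, el, mul_assoc]
  have hord : ∀ v ∈ V, v = 1 ∨ v = wP := fun v hv => by
    obtain ⟨k, rfl⟩ := Subgroup.mem_zpowers_iff.1 hv
    rcases Int.even_or_odd k with ⟨m, rfl⟩ | ⟨m, rfl⟩
    · exact Or.inl (by rw [← two_mul, zpow_mul, zpow_two, frame.zsq, one_zpow])
    · exact Or.inr (by rw [zpow_add, zpow_mul, zpow_two, frame.zsq, one_zpow, one_mul, zpow_one])
  rw [hg', ← el_reverse, fEl, ← el_reverse, ← el_append, ← el_append, ← el_append] at h0
  have hne1 : sameB ([40, 62, 40, 62] ++ fL 0 ++ [40, 62, 40, 62].reverse ++ (fL 0).reverse) [] = false ∧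
      sameB ([40, 62, 40, 62] ++ fL 0 ++ [40, 62, 40, 62].reverse ++ (fL 0).reverse) [0, 6] = false := by
    decide +kernel
  rcases hord _ h0 with e | e
  · exact el_ne_of_sameB hne1.1 (e.trans el_nil.symm)
  · exact el_ne_of_sameB hne1.2 (e.trans el_pair.symm)

end Cfsg.Agent.SporB.FiPair
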