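import Cfsg.Prelude.Def_Classical
import Cfsg.Agent.SporB.FiPair.Data
import Mathlib

/-! The orthogonal group of minus type in dimension six over the field with two elements, on vectors
coded by numbers below 64. -/

set_option autoImplicit false
set_option maxRecDepth 100000

namespace Cfsg.Agent.SporB.FiPair

open Matrix

/-- The index type. -/
abbrev J6 : Type := (Fin 2 ⊕ Fin 2) ⊕ Fin 2

/-- The space. -/
abbrev V6 : Type := J6 → ZMod 2

/-- The form. -/
abbrev qm : V6 → ZMod 2 := Cfsg.quadFormMinus 2 (ZMod 2) 1 1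

/-- The orthogonal group. -/
abbrev GO6 : Subgroup (GL J6 (ZMod 2)) := Cfsg.isometryGroup (ZMod 2) qm

/-- The bit of a coordinate. -/
def bitOf : J6 → ℕ
  | .inl (.inl i) => i
  | .inl (.inr i) => 2 + i
  | .inr i => 4 + i

/-- A vector from its code. -/
def dec6 (n : ℕ) : V6 := fun j => if n / 2 ^ bitOf j % 2 = 1 then 1 else 0

/-- The code of a vector. -/
def enc6 (v : V6) : ℕ :=
  (List.range 6).foldl (fun r i =>
    r + (if v ([Sum.inl (Sum.inl 0), Sum.inl (Sum.inl 1), Sum.inl (Sum.inr 0), Sum.inl (Sum.inr 1),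
      Sum.inr 0, Sum.inr 1].getD i (Sum.inr 1)) = 1 then 2 ^ i else 0)) 0

theorem dec6_enc6 : ∀ v : V6, dec6 (enc6 v) = v ∧ enc6 v < 64 := by decide +kernel

theorem enc6_dec6 : ∀ n : Fin 64, enc6 (dec6 n) = n := by decide +kernel

theorem dec6_inj {m n : ℕ} (hm : m < 64) (hn : n < 64) (h : dec6 m = dec6 n) : m = n := by
  have h1 := enc6_dec6 ⟨m, hm⟩
  have h2 := enc6_dec6 ⟨n, hn⟩
  simp only at h1 h2
  rw [← h1, ← h2, h]

/-- Application of a map given by the images of the unit vectors. -/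
def ap (c : List ℕ) (v : ℕ) : ℕ :=
  (List.range 6).foldl (fun r i => if v / 2 ^ i % 2 = 1 then r ^^^ c.getD i 0 else r) 0

/-- Its matrix. -/
def matOf (c : List ℕ) : Matrix J6 J6 (ZMod 2) := fun i j => dec6 (c.getD (bitOf j) 0) i

theorem mulVec_ext {A B : Matrix J6 J6 (ZMod 2)}
    (h : ∀ n : Fin 64, A *ᵥ dec6 n = B *ᵥ dec6 n) : A = B := by
  refine Matrix.ext_of_mulVec_single fun j => ?_
  have h1 := h ⟨enc6 (Pi.single j 1), (dec6_enc6 _).2⟩
  simpa only [(dec6_enc6 _).1] using h1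

/-- The data of a map: it agrees with its matrix, has the given inverse, and preserves the form. -/
def okMap (c i : List ℕ) : Prop :=
  (∀ n : Fin 64, matOf c *ᵥ dec6 n = dec6 (ap c n) ∧ ap c n < 64) ∧
    (∀ n : Fin 64, matOf i *ᵥ dec6 n = dec6 (ap i n) ∧ ap i n < 64) ∧
    (∀ n : Fin 64, ap c (ap i n) = n ∧ ap i (ap c n) = n) ∧
    ∀ n : Fin 64, qm (dec6 (ap c n)) = qm (dec6 n)

theorem mul_eq_one {c i : List ℕ} (h : okMap c i) : matOf c * matOf i = 1 := by
  refine mulVec_ext fun n => ?_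
  rw [← Matrix.mulVec_mulVec, (h.2.1 n).1, (h.1 ⟨_, (h.2.1 n).2⟩).1, Matrix.one_mulVec,
    (h.2.2.1 n).1]

theorem one_eq_mul {c i : List ℕ} (h : okMap c i) : matOf i * matOf c = 1 := by
  refine mulVec_ext fun n => ?_
  rw [← Matrix.mulVec_mulVec, (h.1 n).1, (h.2.1 ⟨_, (h.1 n).2⟩).1, Matrix.one_mulVec,
    (h.2.2.1 n).2]

/-- The isometry of a map. -/
def mkGO (c i : List ℕ) (h : okMap c i) : GO6 :=
  ⟨⟨matOf c, matOf i, mul_eq_one h, one_eq_mul h⟩, fun u v => by
    show qm (matOf c *ᵥ u) = qm u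
    have := h.1 ⟨enc6 u, (dec6_enc6 u).2⟩
    simp only [(dec6_enc6 u).1] at this
    rw [this.1, h.2.2.2 ⟨enc6 u, (dec6_enc6 u).2⟩, (dec6_enc6 u).1]⟩

theorem gens_ok : ∀ k : Fin 5, okMap (colsL.getD k []) (invL.getD k []) := by
  unfold okMap; decide +kernel

/-- The generators. -/
def genGO (k : Fin 5) : GO6 := mkGO _ _ (gens_ok k)

/-- An index of a generator. -/
def ix (k : ℕ) : Fin 5 := ⟨k % 5, Nat.mod_lt _ (by norm_num)⟩

/-- The isometry of a word in the generators. -/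
def wordGO (w : List ℕ) : GO6 := (w.map fun k => genGO (ix k)).prod

/-- Its action on codes. -/
def apW (w : List ℕ) (v : ℕ) : ℕ := w.foldr (fun k r => ap (colsL.getD (ix k : ℕ) []) r) v

/-- Action of an isometry on a vector. -/
abbrev gmv (M : GO6) (v : V6) : V6 := ((M : GL J6 (ZMod 2)) : Matrix J6 J6 (ZMod 2)) *ᵥ v

theorem gmv_mul (M N : GO6) (v : V6) : gmv (M * N) v = gmv M (gmv N v) := by
  simp [gmv, Matrix.mulVec_mulVec]

theorem gmv_one (v : V6) : gmv 1 v = v := by simp [gmv]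

theorem gmv_inv (M : GO6) (v : V6) : gmv M (gmv M⁻¹ v) = v := by
  rw [← gmv_mul, mul_inv_cancel, gmv_one]

theorem q_gmv (M : GO6) (v : V6) : qm (gmv M v) = qm v := M.2 v v

theorem gmv_add (M : GO6) (u v : V6) : gmv M (u + v) = gmv M u + gmv M v := Matrix.mulVec_add _ _ _

theorem GO6.ext' {M N : GO6} (h : ∀ v, gmv M v = gmv N v) : M = N :=
  Subtype.ext (Units.ext (mulVec_ext fun n => h _))

theorem wordGO_spec : ∀ (w : List ℕ) (n : ℕ), n < 64 →
    gmv (wordGO w) (dec6 n) = dec6 (apW w n) ∧ apW w n < 64 := by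
  intro w
  induction w with
  | nil => intro n hn; exact ⟨by simp [wordGO, gmv, apW], hn⟩
  | cons k w ih =>
    intro n hn
    obtain ⟨h1, h2⟩ := ih n hn
    have h3 := (gens_ok (ix k)).1 ⟨_, h2⟩
    refine ⟨?_, h3.2⟩
    rw [wordGO, List.map_cons, List.prod_cons, gmv_mul]
    change gmv (genGO (ix k)) (gmv (wordGO w) (dec6 n)) = _
    rw [h1]
    exact h3.1

/-- Two isometries agreeing on the non-singular vectors are equal. -/
theorem ext_nonsingular {M N : GO6} (h : ∀ v, qm v = 1 → gmv M v = gmv N v) : M = N := by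
  have hs : ∀ v : V6, qm v = 1 ∨ ∃ n : Fin 64, qm (dec6 n) = 1 ∧ qm (dec6 n + v) = 1 ∨ v = 0 := by
    decide +kernel
  refine GO6.ext' fun v => ?_
  rcases hs v with h1 | ⟨n, ⟨h1, h2⟩ | rfl⟩
  · exact h v h1
  · have h3 := h _ h2
    rw [gmv_add, gmv_add, h _ h1] at h3
    exact add_left_cancel h3
  · simp [gmv]

/-- The chain vectors. -/
def baseV (k : ℕ) : V6 := dec6 ([1, 4, 2, 8, 16, 32].getD k 32)

/-- The candidates for the image of the `k`-th chain vector under a map fixing the earlier ones. -/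
def Cand (k : Fin 6) (x : V6) : Prop :=
  x ≠ 0 ∧ qm x = qm (baseV k) ∧
    ∀ j : Fin 6, j < k → qm (x + baseV j) = qm (baseV k + baseV j)

instance (k : Fin 6) : DecidablePred (Cand k) := fun x => by unfold Cand; infer_instance

/-- The orbit sizes. -/
def orbN : List ℕ := [27, 16, 5, 4, 3, 2]

theorem chain_words : ∀ k : Fin 6, ∀ p ∈ chainW.getD k [],
    (∀ j : Fin 6, j < k → apW p.2 ([1, 4, 2, 8, 16, 32].getD j 32) = [1, 4, 2, 8, 16, 32].getD j 32) ∧
      apW p.2 ([1, 4, 2, 8, 16, 32].getD k 32) = p.1 := by decide +kernel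

theorem chain_cover : ∀ k : Fin 6, ∀ n : Fin 64, Cand k (dec6 n) →
    (n : ℕ) ∈ (chainW.getD k []).map Prod.fst := by
  unfold Cand; decide +kernel

theorem cand_card : ∀ k : Fin 6,
    ((Finset.range 64).filter fun n => Cand k (dec6 n)).card = orbN.getD k 0 := by
  decide +kernel

theorem baseV_lt : ∀ k : Fin 6, [1, 4, 2, 8, 16, 32].getD (k : ℕ) 32 < 64 := by decide +kernel

end Cfsg.Agent.SporB.FiPair
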