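import Cfsg.Agent.SporB.FiPair.Group
import Cfsg.Agent.SporB.FiPair.Lin

/-! The action of the centraliser on the 36 blocks of the suborbit of size 2304 is the orthogonal group. -/

set_option autoImplicit false
set_option Elab.async false
set_option maxRecDepth 100000

namespace Cfsg.Agent.SporB.FiPair

open Cfsg.Agent.CosetCert Cfsg.Agent.SporB.FischerU

local notation "G22" => Cfsg.Spor.Fi22

/-- The code of the vector of a point. -/
noncomputable def vc (x : ℕ) : ℕ := vecT.get 8 x

/-- The element and the isometry agree on the suborbit. -/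
def Rel (g : G22) (M : GO6) : Prop :=
  ∀ x : Fin 3510, (vc (pRep g x : Fin 3510) < 64 ↔ vc x < 64) ∧
    (vc x < 64 → dec6 (vc (pRep g x : Fin 3510)) = gmv M (dec6 (vc x)))

theorem Rel.one : Rel 1 1 := fun x => by simp [gmv_one]

theorem Rel.mul {g h : G22} {M N : GO6} (hg : Rel g M) (hh : Rel h N) : Rel (g * h) (M * N) := fun x => by
  rw [map_mul, Equiv.Perm.mul_apply]
  refine ⟨(hg _).1.trans (hh x).1, fun hx => ?_⟩
  rw [(hg _).2 ((hh x).1.2 hx), (hh x).2 hx, gmv_mul]

theorem Rel.inv {g : G22} {M : GO6} (h : Rel g M) : Rel g⁻¹ M⁻¹ := fun x => by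
  set y := pRep g⁻¹ x
  have e : pRep g y = x := by
    rw [← Equiv.Perm.mul_apply, ← map_mul, mul_inv_cancel, map_one, Equiv.Perm.one_apply]
  have h1 := h y
  rw [e] at h1
  refine ⟨h1.1.symm, fun hx => ?_⟩
  rw [h1.2 (h1.1.1 hx), ← gmv_mul, inv_mul_cancel, gmv_one]

theorem rep_check : ∀ n : Fin 64, qm (dec6 n) = 1 →
    vc (repL.getD n 0 % 3510) = n := by decide +kernel

theorem Rel.unique {g : G22} {M N : GO6} (hM : Rel g M) (hN : Rel g N) : M = N := by
  refine ext_nonsingular fun v hv => ?_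
  have h := rep_check ⟨enc6 v, (dec6_enc6 v).2⟩ (by rw [(dec6_enc6 v).1]; exact hv)
  set x : Fin 3510 := ⟨repL.getD (enc6 v) 0 % 3510, Nat.mod_lt _ (by norm_num)⟩
  have hx : vc x = enc6 v := h
  have hlt : vc x < 64 := hx ▸ (dec6_enc6 v).2
  have e := ((hM x).2 hlt).symm.trans ((hN x).2 hlt)
  rwa [hx, (dec6_enc6 v).1] at e

/-- The check that a list of transpositions induces a map. -/
noncomputable def relB (l : List ℕ) (c : List ℕ) : Bool :=
  allB (fun x => Nat.ble 3510 x ||
    cond (Nat.blt (vc x) 64) (Nat.beq (vc (act l x)) (ap c (vc x))) (!Nat.blt (vc (act l x)) 64)) 12 0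

theorem rel_of_relB {l c : List ℕ} {M : GO6} (hM : ∀ n, n < 64 → gmv M (dec6 n) = dec6 (ap c n) ∧ ap c n < 64)
    (h : relB l c = true) : Rel (el l) M := fun x => by
  have hb := allB_spec_zero h (by norm_num : 3510 ≤ 2 ^ 12) x.2
  rw [Bool.or_eq_true] at hb
  rcases hb with hb | hb
  · exact absurd (Nat.le_of_ble_eq_true hb) (not_le.2 x.2)
  rw [pRep_el]
  by_cases hx : vc x < 64
  · have e : Nat.blt (vc x) 64 = true := Nat.blt_eq.mpr hx
    rw [e, cond_true] at hb
    rw [Nat.eq_of_beq_eq_true hb]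
    exact ⟨iff_of_true (hM _ hx).2 hx, fun _ => (hM _ hx).1.symm⟩
  · have e : Nat.blt (vc x) 64 = false := by
      rw [← Bool.not_eq_true]; exact fun h => hx (Nat.blt_eq.mp h)
    rw [e, cond_false, Bool.not_eq_true', ← Bool.not_eq_true] at hb
    exact ⟨iff_of_false (fun h => hb (Nat.blt_eq.mpr h)) hx, fun h => absurd h hx⟩

theorem relB0 : relB (gensL.getD 0 []) (colsL.getD 0 []) = true := by decide +kernel

theorem relB1 : relB (gensL.getD 1 []) (colsL.getD 1 []) = true := by decide +kernel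

theorem relB2 : relB (gensL.getD 2 []) (colsL.getD 2 []) = true := by decide +kernel

theorem relB3 : relB (gensL.getD 3 []) (colsL.getD 3 []) = true := by decide +kernel

theorem relB4 : relB (gensL.getD 4 []) (colsL.getD 4 []) = true := by decide +kernel

theorem relB_d1 : relB [0] [1, 2, 4, 8, 16, 32] = true := by decide +kernel

/-- A generator. -/
noncomputable def genEl (k : Fin 5) : G22 := el (gensL.getD k [])

theorem rel_gen (k : Fin 5) : Rel (genEl k) (genGO k) := by
  refine rel_of_relB (c := colsL.getD k []) (fun n hn => (gens_ok k).1 ⟨n, hn⟩) ?_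
  fin_cases k
  exacts [relB0, relB1, relB2, relB3, relB4]

theorem rel_d1 : Rel d1 1 := by
  rw [show d1 = el [0] from (el_singleton 0).symm]
  refine rel_of_relB (c := [1, 2, 4, 8, 16, 32]) (fun n hn => ?_) relB_d1
  have h : ∀ n : Fin 64, ap [1, 2, 4, 8, 16, 32] n = n := by decide +kernel
  exact ⟨by rw [gmv_one, h ⟨n, hn⟩], by rw [h ⟨n, hn⟩]; exact hn⟩

theorem gen_mem_CC : ∀ k : Fin 5, genEl k ∈ CC := by
  have h : ∀ k : Fin 5, sameB (gensL.getD k [] ++ [0, 6]) ([0, 6] ++ gensL.getD k []) = true := by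
    decide +kernel
  exact fun k => mem_CC_of_sameB (h k)

/-- The element of a word in the generators. -/
noncomputable def wordEl (w : List ℕ) : G22 := (w.map fun k => genEl (ix k)).prod

/-- The transpositions of a word in the generators. -/
def wordL (w : List ℕ) : List ℕ := w.flatMap fun k => gensL.getD (ix k : ℕ) []

theorem el_wordL (w : List ℕ) : el (wordL w) = wordEl w := by
  induction w with
  | nil => simp [wordL, wordEl, el]
  | cons k w ih =>
    rw [wordL, List.flatMap_cons, el_append]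
    show _ * el (wordL w) = _
    rw [ih]; rfl

theorem wordEl_mem (w : List ℕ) : wordEl w ∈ CC :=
  list_prod_mem fun x hx => by
    obtain ⟨k, -, rfl⟩ := List.mem_map.1 hx
    exact gen_mem_CC _

theorem rel_word (w : List ℕ) : Rel (wordEl w) (wordGO w) := by
  induction w with
  | nil => exact Rel.one
  | cons k w ih => exact (rel_gen (ix k)).mul ih

/-- The transporting word of a transposition. -/
def trans (a : ℕ) : List ℕ := ((lineW.find? fun p => p.1 == a).getD (0, [])).2

theorem trans_check : ∀ a ∈ [40, 43, 62, 66, 120, 154, 424, 434, 539, 550, 3280, 3399],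
    act (wordL (trans a)) 391 = a := by decide +kernel

theorem gen_zero : genEl 0 = tr (ptF 391) := by
  rw [genEl, show gensL.getD ((0 : Fin 5) : ℕ) [] = [391] from rfl, el_singleton]

theorem rel_line {a : ℕ} (ha : a ∈ [40, 43, 62, 66, 120, 154, 424, 434, 539, 550, 3280, 3399]) :
    tr (ptF a) ∈ CC ∧ Rel (tr (ptF a)) (wordGO (trans a) * genGO 0 * (wordGO (trans a))⁻¹) := by
  have e : tr (ptF a) = wordEl (trans a) * genEl 0 * (wordEl (trans a))⁻¹ := by
    rw [gen_zero, conj_tr]
    congr 1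
    refine Fin.ext ?_
    rw [← el_wordL, pRep_el, show ((ptF 391 : Fin 3510) : ℕ) = 391 from rfl, trans_check a ha]
    have hlt : ∀ a ∈ [40, 43, 62, 66, 120, 154, 424, 434, 539, 550, 3280, 3399], a % 3510 = a := by decide
    exact hlt a ha
  rw [e]
  exact ⟨mul_mem (mul_mem (wordEl_mem _) (gen_mem_CC 0)) (inv_mem (wordEl_mem _)),
    ((rel_word _).mul (rel_gen 0)).mul (rel_word _).inv⟩

theorem rel_d1_mem : d1 ∈ CC := KK_le_CC (by
  rw [mem_KK]
  exact ⟨Fin.ext (by rw [show d1 = el [0] from (el_singleton 0).symm, pRep_el]; decide +kernel),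
    Fin.ext (by rw [show d1 = el [0] from (el_singleton 0).symm, pRep_el]; decide +kernel)⟩)

/-- The domain. -/
noncomputable def relDom : Subgroup G22 where
  carrier := {g | g ∈ CC ∧ ∃ M, Rel g M}
  one_mem' := ⟨one_mem _, 1, Rel.one⟩
  mul_mem' := fun ⟨ha, _, hM⟩ ⟨hb, _, hN⟩ => ⟨mul_mem ha hb, _, hM.mul hN⟩
  inv_mem' := fun ⟨ha, _, hM⟩ => ⟨inv_mem ha, _, hM.inv⟩

/-- The map to the orthogonal group. -/
noncomputable def toGO : ↥relDom →* GO6 where
  toFun g := g.2.2.choose
  map_one' := (1 : ↥relDom).2.2.choose_spec.unique Rel.one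
  map_mul' g h := (g * h).2.2.choose_spec.unique (g.2.2.choose_spec.mul h.2.2.choose_spec)

theorem toGO_eq {g : ↥relDom} {M : GO6} (h : Rel g M) : toGO g = M := g.2.2.choose_spec.unique h

end Cfsg.Agent.SporB.FiPair
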