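import Cfsg.Agent.SporB.FiPair.Kernel
import Cfsg.Agent.Components.FStar
import Cfsg.Prelude.Def_Local

/-! The centraliser of two commuting transpositions and of their product, in any group isomorphic to the
presented Fischer group by an isomorphism taking the given pair to the standard one. -/

set_option autoImplicit false
set_option maxRecDepth 100000

namespace Cfsg.Agent.SporB.FiPair

open Cfsg.Agent.CosetCert Cfsg.Agent.SporB.FischerU
open scoped commutatorElement

local notation "G22" => Cfsg.Spor.Fi22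

/-- Every ordered pair of commuting transpositions is conjugate to the standard one. -/
theorem pair_conj {x y : Fin 3510} (hne : x ≠ y) (hc : tr x * tr y = tr y * tr x) :
    ∃ g : G22, g * tr x * g⁻¹ = d1 ∧ g * tr y * g⁻¹ = d2 := by
  set h := val (wd x)
  have hx : pRep h (ptF 0) = x := pRep_wd x
  set y' := pRep h⁻¹ y
  have hxi : pRep h⁻¹ x = ptF 0 := by
    rw [← hx, ← Equiv.Perm.mul_apply, ← map_mul, inv_mul_cancel, map_one, Equiv.Perm.one_apply]
  have hne' : y' ≠ ptF 0 := fun e => hne ((pRep h⁻¹).injective (hxi.trans e.symm))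
  have hcy : pRep d1 y' = y' := by
    refine (comm_tr_iff _ _).1 ?_
    have e1 : d1 = h⁻¹ * tr x * h⁻¹⁻¹ := by rw [conj_tr, hxi]
    rw [e1, show tr y' = h⁻¹ * tr y * h⁻¹⁻¹ from (conj_tr _ _).symm]
    calc h⁻¹ * tr x * h⁻¹⁻¹ * (h⁻¹ * tr y * h⁻¹⁻¹) = h⁻¹ * (tr x * tr y) * h⁻¹⁻¹ := by group
      _ = h⁻¹ * (tr y * tr x) * h⁻¹⁻¹ := by rw [hc]
      _ = _ := by group
  have e6 : pRep (val [2, 1, 3, 2]) 0 = ptF 6 := Fin.ext (by
    rw [pRep_val _ (by decide +kernel)]; decide +kernel)
  rcases fi_data.choose_spec.2.2.2 y' with e | ⟨u, hu, e⟩ | ⟨u, hu, e⟩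
  · exact absurd e hne'
  · refine ⟨u⁻¹ * h⁻¹, ?_, ?_⟩
    · rw [conj_tr, map_mul, Equiv.Perm.mul_apply, hxi]
      have h0 := mem_fiSub.1 (fiSub.inv_mem hu)
      rw [h0]
    · rw [conj_tr, map_mul, Equiv.Perm.mul_apply, show pRep h⁻¹ y = y' from rfl]
      change pRep (u * val [2, 1, 3, 2]) 0 = y' at e
      conv_lhs => rw [← e]
      rw [← Equiv.Perm.mul_apply, ← map_mul, inv_mul_cancel_left]
      exact congrArg tr e6
  · exfalso
    have hu' : u * d1 = d1 * u := (comm_tr_iff _ _).2 (mem_fiSub.1 hu)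
    rw [← e] at hcy
    change pRep d1 (pRep (u * val [2]) 0) = pRep (u * val [2]) 0 at hcy
    rw [map_mul, Equiv.Perm.mul_apply, ← Equiv.Perm.mul_apply (pRep d1), ← map_mul, ← hu', map_mul,
      Equiv.Perm.mul_apply] at hcy
    have h3 := (pRep u).injective hcy
    have h4 := congrArg Fin.val h3
    rw [pRep_tr, pRep_val _ (by decide +kernel)] at h4
    revert h4
    decide +kernel

theorem QQ_isPGroup : IsPGroup 2 QQ := IsPGroup.of_card (n := 10) (by rw [card_QQ]; norm_num)

/-- The centraliser of the kernel lies in it. -/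
theorem mem_QQ_of_commute {c : G22} (hc : c ∈ CC) (h : ∀ i, c * fEl i = fEl i * c) : c ∈ QQ :=
  inner_criterion hc fun i => ⟨false, by rw [h i, mul_inv_cancel_right]; simp⟩

/-- The kernel is a group of order two times an extraspecial group of order 512. -/
theorem QQ_equiv : Nonempty (↥QQ ≃* Multiplicative (ZMod 2) × EE) :=
  ⟨(MulEquiv.subgroupCongr dom_facts.2).trans (MonoidHom.ofInjective prodHom_injective).symm⟩

/-- The group generated by the pair. -/
noncomputable abbrev VV : Subgroup G22 := Subgroup.closure ({d1, d2} : Set G22)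

theorem wP_mem_VV : wP ∈ VV :=
  mul_mem (Subgroup.subset_closure (Or.inl rfl)) (Subgroup.subset_closure (Or.inr rfl))

theorem d2_mem_QQ : d2 ∈ QQ := by
  have e : d2 = d1 * wP := by rw [wP, ← mul_assoc, d1_sq, one_mul]
  rw [e]; exact mul_mem d1_mem_QQ (EE_le_QQ frame.zmem)

theorem VV_le_QQ : VV ≤ QQ := by
  rw [Subgroup.closure_le]
  rintro x (rfl | rfl)
  · exact d1_mem_QQ
  · exact d2_mem_QQ

theorem center_KK : (Subgroup.center ↥KK).map KK.subtype = VV := by
  refine le_antisymm ?_ ?_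
  · rintro _ ⟨x, hx, rfl⟩
    have hc : ∀ i, (x : G22) * fEl i = fEl i * x := fun i =>
      (congrArg Subtype.val (Subgroup.mem_center_iff.1 hx
        ⟨fEl i, QQ_le_KK (EE_le_QQ (Subgroup.subset_closure ⟨i, rfl⟩))⟩)).symm
    have hq := mem_QQ_of_commute (KK_le_CC x.2) hc
    rw [dom_facts.2] at hq
    obtain ⟨⟨a, y⟩, hy⟩ := hq
    show (x : G22) ∈ VV
    rw [← hy]
    have hd : (if a.toAdd = 1 then d1 else 1) ∈ VV := by
      split
      · exact Subgroup.subset_closure (Or.inl rfl)
      · exact one_mem _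
    refine mul_mem hd ?_
    rcases frame.facts.2.1 y y.2 (fun i => by
      have h1 := hc i
      rw [← hy] at h1
      change _ * (y : G22) * fEl i = fEl i * (_ * (y : G22)) at h1
      split at h1
      · rw [mul_assoc, ← mul_assoc (fEl i), ← d1_fEl i, mul_assoc] at h1
        exact mul_left_cancel h1
      · simpa using h1) with e | e <;> rw [show ((y : EE) : G22) = _ from e]
    · exact one_mem _
    · exact wP_mem_VV
  · rw [Subgroup.closure_le]
    rintro x hx
    have hxK : x ∈ KK := QQ_le_KK (VV_le_QQ (Subgroup.subset_closure hx))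
    refine ⟨⟨x, hxK⟩, Subgroup.mem_center_iff.2 fun k => Subtype.ext ?_, rfl⟩
    have hk := mem_KK.1 k.2
    rcases hx with rfl | rfl
    · exact (comm_tr_iff _ _).2 hk.1
    · exact (comm_tr_iff _ _).2 hk.2

theorem comm_sq_mem_VV : ∀ x ∈ QQ, ∀ y ∈ QQ, x * y * x⁻¹ * y⁻¹ ∈ VV ∧ x ^ 2 ∈ VV := by
  have key : ∀ p q : Multiplicative (ZMod 2) × EE, prodHom (p * q * p⁻¹ * q⁻¹) ∈ VV ∧ prodHom (p ^ 2) ∈ VV := by
    have hz : ∀ u : EE, (∀ i, (u : G22) * fEl i = fEl i * u) → prodHom (1, u) ∈ VV := fun u hu => by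
      have e2 : prodHom (1, u) = (u : G22) := by simp [prodHom]
      rw [e2]
      rcases frame.facts.2.1 _ u.2 hu with e | e <;> rw [e]
      · exact one_mem _
      · exact wP_mem_VV
    rintro ⟨a, u⟩ ⟨b, v⟩
    constructor
    · convert hz ⁅u, v⁆ (fun i => (frame.facts.2.2 u v i).1) using 2
      exact Prod.ext (by simp [mul_comm, mul_left_comm]) (commutatorElement_def u v).symm
    · convert hz (u ^ 2) (fun i => (frame.facts.2.2 u v i).2) using 2
      refine Prod.ext ?_ rfl
      show a ^ 2 = 1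
      revert a; decide
  intro x hx y hy
  rw [dom_facts.2] at hx hy
  obtain ⟨p, rfl⟩ := hx
  obtain ⟨q, rfl⟩ := hy
  simpa using key p q

section Transfer

variable {G : Type*} [Group G] (e : G ≃* G22) {a b : G}

include e in
theorem mem_centralizer_pair_iff (ha : e a = d1) (hb : e b = d2) (g : G) :
    g ∈ Subgroup.centralizer ({a, b} : Set G) ↔ e g ∈ KK := by
  rw [Subgroup.mem_centralizer_iff, Subgroup.mem_centralizer_iff]
  simp only [Set.mem_insert_iff, Set.mem_singleton_iff, forall_eq_or_imp, forall_eq]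
  rw [← e.injective.eq_iff, ← e.injective.eq_iff (a := b * g), map_mul, map_mul, map_mul, map_mul, ha, hb]

include e in
theorem mem_centralizer_prod_iff (ha : e a = d1) (hb : e b = d2) (g : G) :
    g ∈ Subgroup.centralizer ({a * b} : Set G) ↔ e g ∈ CC := by
  rw [Subgroup.mem_centralizer_singleton_iff, mem_CC, ← e.injective.eq_iff]
  simp only [map_mul, ha, hb]

/-- The map onto the orthogonal group. -/
noncomputable def homTo (ha : e a = d1) (hb : e b = d2) :
    ↥(Subgroup.centralizer ({a * b} : Set G)) →* GO6 :=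
  pairHom.comp ((e.toMonoidHom.comp (Subgroup.centralizer ({a * b} : Set G)).subtype).codRestrict CC
    fun g => (mem_centralizer_prod_iff e ha hb _).1 g.2)

include e in
theorem homTo_surjective (ha : e a = d1) (hb : e b = d2) : Function.Surjective (homTo e ha hb) := by
  intro M
  obtain ⟨c, hc⟩ := pairHom_surjective M
  refine ⟨⟨e.symm c, (mem_centralizer_prod_iff e ha hb _).2 (by rw [e.apply_symm_apply]; exact c.2)⟩, ?_⟩
  rw [← hc]
  exact congrArg pairHom (Subtype.ext (e.apply_symm_apply _))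

include e in
theorem mem_ker_homTo (ha : e a = d1) (hb : e b = d2) (g : ↥(Subgroup.centralizer ({a * b} : Set G))) :
    g ∈ (homTo e ha hb).ker ↔ e g ∈ QQ := by
  show _ ∈ pairHom.ker ↔ _
  rw [pairHom_ker]
  rfl

/-- The kernel as a subgroup of the kernel in the model. -/
noncomputable def kerEquiv (ha : e a = d1) (hb : e b = d2) : ↥(homTo e ha hb).ker ≃* ↥QQ where
  toFun g := ⟨e g.1, (mem_ker_homTo e ha hb g.1).1 g.2⟩
  invFun q := ⟨⟨e.symm q, (mem_centralizer_prod_iff e ha hb _).2
    (by rw [e.apply_symm_apply]; exact QQ_le_CC q.2)⟩,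
    (mem_ker_homTo e ha hb _).2 (by rw [e.apply_symm_apply]; exact q.2)⟩
  left_inv g := Subtype.ext (Subtype.ext (e.symm_apply_apply _))
  right_inv q := Subtype.ext (e.apply_symm_apply _)
  map_mul' g h := Subtype.ext (map_mul e _ _)

include e in
/-- The centraliser of the product: its generalised Fitting subgroup and the quotient. -/
theorem centralizer_facts_pair [Finite G] (ha : e a = d1) (hb : e b = d2)
    [hn : (Cfsg.generalizedFittingSubgroup ↥(Subgroup.centralizer ({a * b} : Set G))).Normal] :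
    (∃ (E : Type) (_ : Group E) (_ : Finite E), Cfsg.IsExtraspecial 2 E ∧ Nat.card E = 2 ^ 9 ∧
      Nonempty (↥(Cfsg.generalizedFittingSubgroup ↥(Subgroup.centralizer ({a * b} : Set G))) ≃*
        Multiplicative (ZMod 2) × E)) ∧
      Nonempty (↥(Subgroup.centralizer ({a * b} : Set G)) ⧸
        Cfsg.generalizedFittingSubgroup ↥(Subgroup.centralizer ({a * b} : Set G)) ≃* GO6) := by
  haveI : Fact (Nat.Prime 2) := ⟨Nat.prime_two⟩
  haveI : Finite G22 := Finite.of_equiv G e.toEquiv
  set π := homTo e ha hb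
  have hp : IsPGroup 2 π.ker := QQ_isPGroup.of_equiv (kerEquiv e ha hb).symm
  have hcore : Cfsg.pCore 2 ↥(Subgroup.centralizer ({a * b} : Set G)) = π.ker := by
    refine le_antisymm ?_ (le_sSup ⟨inferInstance, hp⟩)
    refine sSup_le fun N hN => ?_
    haveI := hN.1
    haveI := hN.1.map π (homTo_surjective e ha hb)
    have h0 := two_core_bot (N.map π) (hN.2.map π)
    exact (Subgroup.map_eq_bot_iff _).1 h0
  have hcen : Subgroup.centralizer (π.ker : Set ↥(Subgroup.centralizer ({a * b} : Set G))) ≤ π.ker := by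
    intro c hc
    rw [mem_ker_homTo e ha hb]
    refine mem_QQ_of_commute ((mem_centralizer_prod_iff e ha hb _).1 c.2) fun i => ?_
    set q := (kerEquiv e ha hb).symm ⟨fEl i, EE_le_QQ (Subgroup.subset_closure ⟨i, rfl⟩)⟩
    have h1 := congrArg (fun t : ↥(Subgroup.centralizer ({a * b} : Set G)) => e (t : G))
      (Subgroup.mem_centralizer_iff.1 hc q.1 q.2)
    have hq : e ((q.1 : ↥(Subgroup.centralizer ({a * b} : Set G))) : G) = fEl i := e.apply_symm_apply _
    simp only [Subgroup.coe_mul, map_mul, hq] at h1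
    exact h1.symm
  have hF : Cfsg.generalizedFittingSubgroup ↥(Subgroup.centralizer ({a * b} : Set G)) = π.ker :=
    (Components.genFitting_eq_pCore_of_centralizer_le (p := 2) (hcore ▸ hcen)).trans hcore
  obtain ⟨ε⟩ := QQ_equiv
  exact ⟨⟨↥EE, inferInstance, inferInstance, frame.extraspecial, by rw [card_EE]; norm_num,
      ⟨(MulEquiv.subgroupCongr hF).trans ((kerEquiv e ha hb).trans ε)⟩⟩,
    ⟨(QuotientGroup.quotientMulEquivOfEq hF).trans
      (QuotientGroup.quotientKerEquivOfSurjective π (homTo_surjective e ha hb))⟩⟩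

include e in
/-- The centraliser of the product as an extension by the automorphism group of the unitary group. -/
theorem centralizer_extension (ha : e a = d1) (hb : e b = d2) (K C V : Subgroup G)
    (hK : K = Subgroup.centralizer ({a, b} : Set G)) (hC : C = Subgroup.centralizer ({a * b} : Set G))
    (hV : V = Subgroup.closure ({a, b} : Set G)) :
    K ≤ C ∧ (K.subgroupOf C).index = 2 ∧ (Subgroup.center ↥K).map K.subtype = V ∧
      ∃ E : Subgroup G, V ≤ E ∧ E ≤ C ∧ (∀ c ∈ C, ∀ x ∈ E, c * x * c⁻¹ ∈ E) ∧ Nat.card E = 2 ^ 10 ∧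
        (∀ x ∈ E, ∀ y ∈ E, x * y * x⁻¹ * y⁻¹ ∈ V ∧ x ^ 2 ∈ V) ∧
        ∃ (_ : (E.subgroupOf C).Normal) (F : Type) (_ : Field F) (_ : Fintype F),
          Fintype.card F = 4 ∧ Nonempty (↥C ⧸ E.subgroupOf C ≃* MulAut (Cfsg.PSU 4 F 2)) := by
  subst hK hC
  set C := Subgroup.centralizer ({a * b} : Set G) with hCdef
  set K := Subgroup.centralizer ({a, b} : Set G) with hKdef
  have hCc : ∀ g, g ∈ C ↔ e g ∈ CC := mem_centralizer_prod_iff e ha hb
  have hKc : ∀ g, g ∈ K ↔ e g ∈ KK := mem_centralizer_pair_iff e ha hb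
  have hVc : V = VV.comap e.toMonoidHom := by
    show _ = Subgroup.comap (e : G →* G22) VV
    rw [hV, Subgroup.comap_equiv_eq_map_symm, MonoidHom.map_closure]
    congr 1
    ext x
    simp only [Set.mem_image, Set.mem_insert_iff, Set.mem_singleton_iff]
    constructor
    · rintro (rfl | rfl)
      · exact ⟨d1, Or.inl rfl, by rw [← ha]; exact e.symm_apply_apply _⟩
      · exact ⟨d2, Or.inr rfl, by rw [← hb]; exact e.symm_apply_apply _⟩
    · rintro ⟨y, rfl | rfl, rfl⟩
      · exact Or.inl (by rw [← ha]; exact e.symm_apply_apply _)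
      · exact Or.inr (by rw [← hb]; exact e.symm_apply_apply _)
  have hKC : K ≤ C := fun g hg => (hCc g).2 (KK_le_CC ((hKc g).1 hg))
  let ψ : ↥C ≃* ↥CC :=
    { toFun := fun g => ⟨e g, (hCc _).1 g.2⟩
      invFun := fun c => ⟨e.symm c, (hCc _).2 (by rw [e.apply_symm_apply]; exact c.2)⟩
      left_inv := fun g => Subtype.ext (e.symm_apply_apply _)
      right_inv := fun c => Subtype.ext (e.apply_symm_apply _)
      map_mul' := fun g h => Subtype.ext (map_mul e _ _) }
  refine ⟨hKC, ?_, ?_, QQ.comap e.toMonoidHom, ?_, ?_, ?_, ?_, ?_, ?_⟩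
  · have h : K.subgroupOf C = (KK.subgroupOf CC).comap ψ.toMonoidHom := by
      ext g; exact hKc g
    rw [h, Subgroup.index_comap_of_surjective _ ψ.surjective, index_KK]
  · rw [hVc, ← center_KK]
    ext g
    constructor
    · rintro ⟨x, hx, rfl⟩
      refine ⟨⟨e x, (hKc _).1 x.2⟩, Subgroup.mem_center_iff.2 fun y => Subtype.ext ?_, rfl⟩
      have h1 := congrArg (fun t : K => e (t : G)) (Subgroup.mem_center_iff.1 hx
        ⟨e.symm y, (hKc _).2 (by rw [e.apply_symm_apply]; exact y.2)⟩)
      simpa using h1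
    · rintro ⟨x, hx, hgx⟩
      have hgx' : (x : G22) = e g := hgx
      refine ⟨⟨g, (hKc g).2 (hgx' ▸ x.2)⟩, Subgroup.mem_center_iff.2 fun y => Subtype.ext (e.injective ?_), rfl⟩
      have h1 := congrArg Subtype.val (Subgroup.mem_center_iff.1 hx ⟨e y, (hKc _).1 y.2⟩)
      simpa [hgx'] using h1
  · rw [hVc]; exact Subgroup.comap_mono VV_le_QQ
  · exact fun g hg => (hCc g).2 (QQ_le_CC hg)
  · intro c hc x hx
    show e (c * x * c⁻¹) ∈ QQ
    rw [map_mul, map_mul, map_inv]
    exact QQ_normal _ ((hCc c).1 hc) _ hx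
  · rw [Nat.card_congr (Equiv.subtypeEquiv (p := fun g => g ∈ QQ.comap e.toMonoidHom)
      (q := fun g => g ∈ QQ) e.toEquiv fun _ => Iff.rfl), card_QQ]
    norm_num
  · intro x hx y hy
    rw [hVc]
    have h := comm_sq_mem_VV _ hx _ hy
    exact ⟨by simpa using h.1, by simpa using h.2⟩
  · have h : (QQ.comap e.toMonoidHom).subgroupOf C = (homTo e ha hb).ker := by
      ext g; rw [mem_ker_homTo e ha hb]; rfl
    obtain ⟨θ⟩ := aut_equiv
    have hnorm : ((QQ.comap e.toMonoidHom).subgroupOf C).Normal := by rw [h]; infer_instance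
    refine ⟨hnorm, GFour25.F4, inferInstance, inferInstance, GFour25.card_F4, ⟨?_⟩⟩
    exact ((QuotientGroup.quotientMulEquivOfEq h).trans
      (QuotientGroup.quotientKerEquivOfSurjective _ (homTo_surjective e ha hb))).trans θ

end Transfer

end Cfsg.Agent.SporB.FiPair
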