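import Cfsg.Agent.SporB.FiPair.Aut

/-! Transfer to a group with a class of transpositions isomorphic to that of the presented Fischer group. -/

set_option autoImplicit false
set_option maxRecDepth 100000

namespace Cfsg.Agent.SporB.FiPair

open Cfsg.Agent.SporB.FischerU

local notation "G22" => Cfsg.Spor.Fi22

/-- The isometry group in the form of the statements. -/
theorem GO6_def : GO6 = Cfsg.isometryGroup (ZMod 2) (Cfsg.quadFormMinus 2 (ZMod 2) 1 1) := rfl

/-- A pair of commuting members goes to the standard one under a suitable isomorphism. -/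
theorem exists_std {G : Type*} [Group G] {D : Set G} (h : ∃ e : G ≃* G22, e '' D = Set.range tr)
    {a b : G} (ha : a ∈ D) (hb : b ∈ D) (hne : a ≠ b) (hc : Commute a b) :
    ∃ e : G ≃* G22, e a = d1 ∧ e b = d2 := by
  obtain ⟨e, he⟩ := h
  obtain ⟨x, hx⟩ := (he ▸ Set.mem_image_of_mem e ha : e a ∈ Set.range tr)
  obtain ⟨y, hy⟩ := (he ▸ Set.mem_image_of_mem e hb : e b ∈ Set.range tr)
  have hxy : x ≠ y := fun h => hne (e.injective (hx.symm.trans (h ▸ hy)))
  have hc' : tr x * tr y = tr y * tr x := by rw [hx, hy, ← map_mul, ← map_mul, hc.eq]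
  obtain ⟨g, g1, g2⟩ := pair_conj hxy hc'
  refine ⟨e.trans (MulAut.conj g), ?_, ?_⟩
  · show g * e a * g⁻¹ = d1
    rw [← hx, g1]
  · show g * e b * g⁻¹ = d2
    rw [← hy, g2]

/-- The centraliser of the product of two commuting members. -/
theorem pair_product_centralizer {G : Type*} [Group G] [Finite G] {D : Set G}
    (h : ∃ e : G ≃* G22, e '' D = Set.range tr) {d₁ d₂ : G} (h₁ : d₁ ∈ D) (h₂ : d₂ ∈ D) (hne : d₁ ≠ d₂)
    (hc : Commute d₁ d₂) (C : Subgroup G) (hC : C = Subgroup.centralizer ({d₁ * d₂} : Set G))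
    [hn : (Cfsg.generalizedFittingSubgroup ↥C).Normal] :
    (∃ (E : Type) (_ : Group E) (_ : Finite E), Cfsg.IsExtraspecial 2 E ∧ Nat.card E = 2 ^ 9 ∧
      Nonempty (↥(Cfsg.generalizedFittingSubgroup ↥C) ≃* Multiplicative (ZMod 2) × E)) ∧
      Nonempty (↥C ⧸ Cfsg.generalizedFittingSubgroup ↥C ≃*
        Cfsg.isometryGroup (ZMod 2) (Cfsg.quadFormMinus 2 (ZMod 2) 1 1)) := by
  subst hC
  obtain ⟨e, ha, hb⟩ := exists_std h h₁ h₂ hne hc
  exact centralizer_facts_pair e ha hb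

/-- The extension of a pair centraliser. -/
theorem pair_extension {G : Type*} [Group G] {D : Set G} (h : ∃ e : G ≃* G22, e '' D = Set.range tr)
    {d₁ d₂ : G} (h₁ : d₁ ∈ D) (h₂ : d₂ ∈ D) (hne : d₁ ≠ d₂) (hc : Commute d₁ d₂) (K C V : Subgroup G)
    (hK : K = Subgroup.centralizer ({d₁, d₂} : Set G)) (hC : C = Subgroup.centralizer ({d₁ * d₂} : Set G))
    (hV : V = Subgroup.closure ({d₁, d₂} : Set G)) :
    K ≤ C ∧ (K.subgroupOf C).index = 2 ∧ (Subgroup.center ↥K).map K.subtype = V ∧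
      ∃ E : Subgroup G, V ≤ E ∧ E ≤ C ∧ (∀ c ∈ C, ∀ x ∈ E, c * x * c⁻¹ ∈ E) ∧ Nat.card E = 2 ^ 10 ∧
        (∀ x ∈ E, ∀ y ∈ E, x * y * x⁻¹ * y⁻¹ ∈ V ∧ x ^ 2 ∈ V) ∧
        ∃ (_ : (E.subgroupOf C).Normal) (F : Type) (_ : Field F) (_ : Fintype F),
          Fintype.card F = 4 ∧ Nonempty (↥C ⧸ E.subgroupOf C ≃* MulAut (Cfsg.PSU 4 F 2)) := by
  obtain ⟨e, ha, hb⟩ := exists_std h h₁ h₂ hne hc
  exact centralizer_extension e ha hb K C V hK hC hV

/-- The generalised Fitting subgroup of the centraliser of the involution in the automorphism group. -/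
theorem genFitting_CJ [Finite G22] [Finite (MulAut G22)] :
    (Cfsg.generalizedFittingSubgroup ↥CJ).map CJ.subtype = QA := by
  haveI : Fact (Nat.Prime 2) := ⟨Nat.prime_two⟩
  obtain ⟨θ⟩ := quot_equiv
  let π : ↥CJ →* GO6 := θ.toMonoidHom.comp (QuotientGroup.mk' _)
  have hs : Function.Surjective π := θ.surjective.comp QuotientGroup.mk_surjective
  have hk : π.ker = QA.subgroupOf CJ := by
    ext x
    rw [MonoidHom.mem_ker]
    show θ _ = 1 ↔ _
    rw [MulEquiv.map_eq_one_iff]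
    exact QuotientGroup.eq_one_iff _
  have hp : IsPGroup 2 π.ker := by
    rw [hk]
    refine IsPGroup.of_card (n := 11) ?_
    rw [Nat.card_congr (Subgroup.subgroupOfEquivOfLe QA_le_CJ).toEquiv, card_QA]
  have hcore : Cfsg.pCore 2 ↥CJ = π.ker := by
    refine le_antisymm ?_ (le_sSup ⟨inferInstance, hp⟩)
    refine sSup_le fun N hN => ?_
    haveI := hN.1
    haveI := hN.1.map π hs
    exact (Subgroup.map_eq_bot_iff _).1 (two_core_bot (N.map π) (hN.2.map π))
  have hcen : Subgroup.centralizer (π.ker : Set ↥CJ) ≤ π.ker := by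
    intro c hc
    rw [hk] at hc ⊢
    have h1 : (c : MulAut G22) ∈ Subgroup.centralizer (QA : Set (MulAut G22)) := fun y hy =>
      congrArg Subtype.val (hc ⟨y, QA_le_CJ hy⟩ hy)
    rw [centralizer_QA] at h1
    obtain ⟨x, -, hx⟩ := h1
    show (c : MulAut G22) ∈ QA
    rw [← hx]
    exact x.2
  rw [(Components.genFitting_eq_pCore_of_centralizer_le (p := 2) (hcore ▸ hcen)).trans hcore, hk,
    Subgroup.subgroupOf_map_subtype, inf_eq_left.2 QA_le_CJ]

theorem comap_map_centralizer {A B : Type*} [Group A] [Group B] (ε : A ≃* B) (S : Set A) :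
    (Subgroup.centralizer S).map ε.toMonoidHom = Subgroup.centralizer (ε '' S) := by
  ext b
  constructor
  · rintro ⟨a, ha, rfl⟩ _ ⟨s, hs, rfl⟩
    show ε s * ε a = ε a * ε s
    rw [← map_mul, ← map_mul, ha s hs]
  · intro hb
    refine ⟨ε.symm b, fun s hs => ε.injective ?_, ε.apply_symm_apply b⟩
    rw [map_mul, map_mul, ε.apply_symm_apply]
    exact hb (ε s) ⟨s, hs, rfl⟩

end Cfsg.Agent.SporB.FiPair
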